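import Cfsg.Agent.H10.RG.I0

/-! Codes for `SL₅(2)` and for the exterior square of its natural module. -/

set_option autoImplicit false
set_option linter.unusedSectionVars false
set_option linter.unusedVariables false
set_option maxRecDepth 100000
open Cfsg Subgroup H19 H0 H15 H10.RF Matrix
open scoped commutatorElement Pointwise
namespace H10.RG
local notation "cj" => H19.cj
/-- a matrix with five columns applied to a vector -/
def a5 (g u : ℕ) : ℕ := Nat.xor (Nat.xor (Nat.xor (Nat.xor (sc g u 0 0) (sc g u 1 11)) (sc g u 2 22)) (sc g u 3 33)) (sc g u 4 44)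
theorem a5_eq (g u : ℕ) : a5 g u = lin (cl11 g) 5 u := by
  have : a5 g u = Nat.xor (Nat.xor (Nat.xor (Nat.xor (Nat.xor 0 (sc g u 0 0)) (sc g u 1 11)) (sc g u 2 22)) (sc g u 3 33))
    (sc g u 4 44) := by simp only [a5, xor_eq', Nat.zero_xor]
  exact this
theorem a5_lt (g u : ℕ) : a5 g u < 2048 := a5_eq g u ▸ lin_lt _ _ 11 (fun j _ => cl11_lt g j) u
/-- product of codes -/
noncomputable def mm (g h : ℕ) : ℕ := pk (fun j => force (cl11 h j) (a5 g)) 5 0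
theorem cl_mm (g h : ℕ) {j : ℕ} (hj : j < 5) : cl11 (mm g h) j = a5 g (cl11 h j) := by
  rw [mm, cl11_pk (fun j => by rw [force_eq]; exact a5_lt _ _) _ _ hj, force_eq, zero_add]
theorem pk_congr {f g : ℕ → ℕ} {n : ℕ} : ∀ {k}, (∀ j < k + n, f j = g j) → pk f n k = pk g n k := by
  induction n with
  | zero => intros; rfl
  | succ n ih =>
    intro k h
    change f k + 2048 * pk f n (k + 1) = g k + 2048 * pk g n (k + 1)
    rw [h k (by omega), ih fun j hj => h j (by omega)]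
def vec (u : ℕ) : V5 := fun i => if u.testBit i then 1 else 0
def cv (w : V5) : ℕ := (w 0).val + 2 * (w 1).val + 4 * (w 2).val + 8 * (w 3).val + 16 * (w 4).val
theorem vcv : (∀ w, vec (cv w) = w ∧ cv w < 32) ∧ (∀ u < 32, cv (vec u) = u) ∧ ∀ j : Fin 5, vec (2 ^ (j : ℕ)) = Pi.single j 1 := by
  decide +kernel
theorem vec_xor (a b : ℕ) : vec (a ^^^ b) = vec a + vec b := funext fun i => by
  simp only [vec, Nat.testBit_xor, Pi.add_apply]
  cases a.testBit i <;> cases b.testBit i <;> decide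
theorem vec_mod (a : ℕ) : vec (a % 32) = vec a := funext fun i => by
  simp only [vec, show 32 = 2 ^ 5 from rfl, Nat.testBit_mod_two_pow, i.2, decide_true, Bool.true_and]
theorem cv_add (a b : V5) : cv (a + b) = cv a ^^^ cv b := by
  rw [← (vcv.1 a).1, ← (vcv.1 b).1, ← vec_xor, vcv.2.1 _ (Nat.xor_lt_two_pow (n := 5) (vcv.1 a).2 (vcv.1 b).2), (vcv.1 a).1, (vcv.1 b).1]
/-- the code of a matrix -/
noncomputable def cd (m : S5) : ℕ := pk (fun j => cv (m.1 *ᵥ vec (2 ^ j))) 5 0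
theorem cl_cd (m : S5) {j : ℕ} (hj : j < 5) : cl11 (cd m) j = cv (m.1 *ᵥ vec (2 ^ j)) := by
  rw [cd, cl11_pk (fun j => (vcv.1 _).2.trans (by decide)) _ _ hj, zero_add]
theorem a5_cd (m : S5) (u : ℕ) : a5 (cd m) u = cv (m.1 *ᵥ vec u) := by
  have := map_lin (fun u => cv (m.1 *ᵥ vec u)) (by rw [show vec 0 = 0 by decide, mulVec_zero]; rfl)
    (fun a b => by rw [vec_xor, mulVec_add, cv_add]) (fun j => 2 ^ j) 5 u
  rw [lin_two_pow, show 2 ^ 5 = 32 from rfl, vec_mod] at this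
  rw [this, a5_eq]
  exact lin_congr _ _ _ _ fun j hj => cl_cd m hj
theorem vec_a5 (m : S5) (u : ℕ) : vec (a5 (cd m) u) = m.1 *ᵥ vec u := by rw [a5_cd, (vcv.1 _).1]
theorem cd_mul (m n : S5) : cd (m * n) = mm (cd m) (cd n) := pk_congr fun j hj => by
  rw [force_eq, cl_cd n (by omega), a5_cd, (vcv.1 _).1, mulVec_mulVec]; rfl
theorem cd_inj {m n : S5} (h : cd m = cd n) : m = n := Subtype.ext (ext_of_mulVec_single fun j => by
  rw [← vcv.2.2, ← vec_a5, h, vec_a5])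
/-- the code of the identity -/
def I5 : ℕ := 281543712968705
theorem cd_one : cd 1 = I5 := by decide +kernel
/-- codes of invertible matrices -/
noncomputable def ok (g : ℕ) : Bool := band (Nat.beq (pk (fun j => Nat.land (cl11 g j) 31) 5 0) g)
  (allTo (fun u => bor (Nat.beq u 0) (Nat.blt 0 (a5 g u))) 32)
theorem l31 (a : ℕ) : Nat.land a 31 < 32 := Nat.lt_succ_of_le Nat.and_le_right
theorem ok_cd (m : S5) : ok (cd m) = true := by
  simp only [ok, band_iff, allTo_iff, bor_iff, Nat.beq_eq, Nat.blt_eq]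
  refine ⟨pk_congr fun j hj => ?_, fun u hu => ?_⟩
  · rw [cl_cd m (by omega), Nat.land_eq, show 31 = 2 ^ 5 - 1 from rfl, Nat.and_two_pow_sub_one_of_lt_two_pow (vcv.1 _).2]
  · by_contra! k
    have := vec_a5 m u
    rw [Nat.le_zero.1 k.2, show vec 0 = 0 by decide] at this
    have e := eq_zero_of_mulVec_eq_zero (by rw [m.2]; exact one_ne_zero) this.symm
    exact k.1 ((vcv.2.1 u hu).symm.trans (by rw [e]; rfl))
theorem ex_cd {g : ℕ} (h : ok g = true) : ∃ m, cd m = g := by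
  simp only [ok, band_iff, allTo_iff, bor_iff, Nat.beq_eq, Nat.blt_eq] at h
  have c : ∀ j < 5, cl11 g j < 32 := fun j hj => by
    rw [← h.1, cl11_pk (fun j => (l31 _).trans (by decide)) _ _ hj]
    exact l31 _
  let M : Matrix (Fin 5) (Fin 5) (ZMod 2) := of fun i j => vec (cl11 g j) i
  have e : ∀ j < 5, cv (M *ᵥ vec (2 ^ j)) = cl11 g j := fun j hj => by
    rw [vcv.2.2 ⟨j, hj⟩, mulVec_single_one]; exact vcv.2.1 _ (c j hj)
  have d : M.det = 1 := by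
    refine (by decide : ∀ x : ZMod 2, x ≠ 0 → x = 1) _ fun k => ?_
    obtain ⟨w, w0, k⟩ := exists_mulVec_eq_zero_iff.2 k
    have := map_lin (fun u => cv (M *ᵥ vec u)) (by rw [show vec 0 = 0 by decide, mulVec_zero]; rfl)
      (fun a b => by rw [vec_xor, mulVec_add, cv_add]) (fun j => 2 ^ j) 5 (cv w)
    rw [lin_two_pow, show 2 ^ 5 = 32 from rfl, vec_mod, (vcv.1 w).1, k, lin_congr _ _ _ _ e, ← a5_eq] at this
    rcases h.2 _ (vcv.1 w).2 with q | q
    · exact w0 ((vcv.1 w).1.symm.trans (by rw [q]; decide))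
    · exact q.ne this
  refine ⟨⟨M, d⟩, .trans (pk_congr fun j hj => ?_) h.1⟩
  rw [e j (by omega), Nat.land_eq, show 31 = 2 ^ 5 - 1 from rfl, Nat.and_two_pow_sub_one_of_lt_two_pow (c j (by omega))]
theorem ok_mm {g h : ℕ} (h1 : ok g = true) (h2 : ok h = true) : ok (mm g h) = true := by
  obtain ⟨m, rfl⟩ := ex_cd h1
  obtain ⟨n, rfl⟩ := ex_cd h2
  exact cd_mul m n ▸ ok_cd _
theorem ok_cl {g j : ℕ} (h : ok g = true) (hj : j < 5) : cl11 g j < 32 := by
  obtain ⟨m, rfl⟩ := ex_cd h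
  exact cl_cd m hj ▸ (vcv.1 _).2
/-- exterior product -/
def wd (u w : ℕ) : ℕ :=
  let f := fun j m s => Nat.shiftLeft (Nat.xor (Nat.mul (Nat.land (Nat.shiftRight u j) 1) (Nat.land w m))
    (Nat.mul (Nat.land (Nat.shiftRight w j) 1) (Nat.land u m))) s
  Nat.xor (Nat.xor (Nat.xor (f 1 1 0) (f 2 3 1)) (f 3 7 3)) (f 4 15 6)
def pp (k : ℕ) : ℕ := getT 0x3210210100 4 15 k
def qq (k : ℕ) : ℕ := getT 0x4444333221 4 15 k
theorem wdk : (∀ k < 32 * 32, wd (k / 32) (k % 32) < 1024 ∧ wd (k / 32) (k % 32) = wd (k % 32) (k / 32) ∧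
    wd (k / 32) (k % 32) = lin (fun i => wd (2 ^ i) (k % 32)) 5 (k / 32)) ∧ (∀ k < 11, pp k < 5 ∧ qq k < 5) ∧
    ∀ i < 5, ∀ j < 5, i = j ∧ wd (2 ^ i) (2 ^ j) = 0 ∨ ∃ k < 10, wd (2 ^ i) (2 ^ j) = 2 ^ k ∧ (pp k = i ∧ qq k = j ∨ pp k = j ∧ qq k = i) := by
  decide +kernel
theorem wdk' {u w : ℕ} (hu : u < 32) (hw : w < 32) : wd u w < 1024 ∧ wd u w = wd w u ∧ wd u w = lin (fun i => wd (2 ^ i) w) 5 u := by
  have := wdk.1 (32 * u + w) (by omega)
  rwa [show (32 * u + w) / 32 = u by omega, show (32 * u + w) % 32 = w by omega] at this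
/-- the exterior square of a matrix -/
noncomputable def L2 (g : ℕ) : ℕ :=
  pk (fun k => force (Nat.land (cl11 g (pp k)) 31) fun u => force (Nat.land (cl11 g (qq k)) 31) (wd u)) 11 0
theorem cl_L2' (g : ℕ) {k : ℕ} (hk : k < 11) : cl11 (L2 g) k = wd (Nat.land (cl11 g (pp k)) 31) (Nat.land (cl11 g (qq k)) 31) := by
  rw [L2, cl11_pk (fun j => by simp only [force_eq]; exact (wdk' (l31 _) (l31 _)).1.trans (by decide)) _ _ hk, force_eq, force_eq,
    zero_add]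
theorem cl_L2 {g k : ℕ} (h : ok g = true) (hk : k < 11) : cl11 (L2 g) k = wd (cl11 g (pp k)) (cl11 g (qq k)) := by
  rw [cl_L2' g hk, Nat.land_eq, Nat.land_eq, show 31 = 2 ^ 5 - 1 from rfl, Nat.and_two_pow_sub_one_of_lt_two_pow
    (ok_cl h (wdk.2.1 k hk).1), Nat.and_two_pow_sub_one_of_lt_two_pow (ok_cl h (wdk.2.1 k hk).2)]
theorem L2_lt (g a : ℕ) : mv (L2 g) a < 1024 :=
  mv_eq _ a ▸ lin_lt _ _ 10 (fun j hj => cl_L2' g hj ▸ (wdk' (l31 _) (l31 _)).1) a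

variable {G : Type*} [Group G]
/-- the group `N(A)` in coordinates -/
structure IW (A : Subgroup G) (ρ : G → ℕ) (v : ℕ → G) : Prop where
  sq : ∀ a ∈ A, a * a = 1
  cA : #A = 1024
  vx : ∀ a b, v (a ^^^ b) = v a * v b
  vm : ∀ i, v i ∈ A
  vs : ∀ x ∈ A, ∃ i < 1024, v i = x
  vi : ∀ i < 1024, ∀ j < 1024, v i = v j → i = j
  mul : ∀ a ∈ N(A), ∀ b ∈ N(A), ρ (a * b) = mm (ρ a) (ρ b)
  eqv : ∀ a ∈ N(A), ∀ b ∈ N(A), ρ a = ρ b ↔ a * b⁻¹ ∈ A
  one : ρ 1 = I5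
  okr : ∀ a ∈ N(A), ok (ρ a) = true
  sur : ∀ g, ok g = true → ∃ a ∈ N(A), ρ a = g
  ac : ∀ n ∈ N(A), Ac v n (mv (L2 (ρ n)))
  card : #N(A) = 1024 * 9999360
theorem cS5 : Nat.card S5 = 9999360 := by
  have h2 := H11.card_units_mul_card_sl (ι := Fin 5) (F := ZMod 2)
  rw [H11.card_gl] at h2
  rw [show (∏ x : Fin (Fintype.card (Fin 5)), _) = 9999360 by decide +kernel] at h2
  simpa only [ZMod.card, Nat.add_one_sub_one, one_mul] using h2
open Classical in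
theorem exIW [Finite G] {A : Subgroup G} {θ : N(A) →* S5} {β : V5 → V5 → G} (s : ∀ a ∈ A, a * a = 1) (c : #A = 1024)
    (h : WG A θ β) : ∃ v, IW A (fun a => if k : a ∈ N(A) then cd (θ ⟨a, k⟩) else 0) v := by
  let b := fun k => β (vec (2 ^ pp k)) (vec (2 ^ qq k))
  have hx := lp_xor s (n := 11) fun j _ => h.mem (vec (2 ^ pp j)) (vec (2 ^ qq j))
  have md : ∀ n i, lp b n (i % 2 ^ n) = lp b n i := fun n i => by
    have : ∀ m ≤ n, lp b m (i % 2 ^ n) = lp b m i := fun m hm => by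
      induction m with
      | zero => rfl
      | succ m ih => rw [lp_succ, lp_succ, ih (by omega), Nat.testBit_mod_two_pow]; simp [show m < n by omega]
    exact this n le_rfl
  have w1 : ∀ u < 32, ∀ w < 32, (∀ i < 5, lp b 11 (wd (2 ^ i) w) = β (vec (2 ^ i)) (vec w)) → lp b 11 (wd u w) = β (vec u) (vec w) :=
    fun u hu w hw k => by
      have := hom_lin (φ := fun u => β (vec u) (vec w)) (fun a b => by rw [vec_xor, h.add]) (fun j => 2 ^ j) 5 u
      rw [lin_two_pow, Nat.mod_eq_of_lt (show u < 2 ^ 5 from hu)] at this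
      rw [(wdk' hu hw).2.2, hom_lin hx, this]
      exact lp_congr k u
  have p5 : ∀ i < 5, 2 ^ i < 32 := by decide
  have w2 : ∀ u < 32, ∀ w < 32, lp b 11 (wd u w) = β (vec u) (vec w) := fun u hu w hw => w1 u hu w hw fun i hi => by
    rw [(wdk' (p5 i hi) hw).2.1, h.sym]
    refine w1 w hw _ (p5 i hi) fun j hj => ?_
    rcases wdk.2.2 j hj i hi with ⟨rfl, e⟩ | ⟨k, hk, e, q | q⟩
    · rw [e, h.alt]; simpa using hx 0 0
    · rw [e, lp_pow _ (by omega), ← q.1, ← q.2]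
    · rw [e, lp_pow _ (by omega), ← q.1, ← q.2, h.sym]
  have vs : ∀ x ∈ A, ∃ i < 1024, lp b 11 i = x := fun x hx' => fin_ind (P := fun x => ∃ i < 1024, lp b 11 i = x)
    ⟨0, by decide, by simpa using hx 0 0⟩ (by
      rintro _ _ ⟨p, rfl⟩ ⟨i, hi, rfl⟩
      exact ⟨_, Nat.xor_lt_two_pow (n := 10) hi (wdk' (vcv.1 p.1).2 (vcv.1 p.2).2).1,
        by rw [hx, w2 _ (vcv.1 _).2 _ (vcv.1 _).2, (vcv.1 _).1, (vcv.1 _).1]⟩) x (h.gen hx')
  have vm := lp_mem (n := 11) fun j _ => h.mem (vec (2 ^ pp j)) (vec (2 ^ qq j))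
  refine ⟨lp b 11, s, c, hx, vm, vs, fun i hi j hj e => ?_, fun a ha b hb => ?_, fun a ha b hb => ?_, ?_, fun a ha => ?_,
    fun g hg => ?_, fun n hn => basisM hx (md 11) fun j hj => ?_, ?_⟩
  · have : Function.Bijective fun i : Fin 1024 => (⟨lp b 11 i, vm i⟩ : A) := (Nat.bijective_iff_surjective_and_card _).2
      ⟨fun x => let ⟨i, hi, e⟩ := vs x x.2; ⟨⟨i, hi⟩, Subtype.ext e⟩, by rw [c]; simp⟩
    exact congrArg Fin.val (this.1 (a₁ := ⟨i, hi⟩) (a₂ := ⟨j, hj⟩) (Subtype.ext e))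
  · simp only [ha, hb, mul_mem ha hb, dif_pos]
    rw [← cd_mul, ← map_mul]; rfl
  · simp only [ha, hb, dif_pos]
    exact ⟨fun e => (h.ker (⟨a, ha⟩ * ⟨b, hb⟩⁻¹)).1 (by simp [cd_inj e]),
      fun e => congrArg cd (mul_inv_eq_one.1 (by simpa using (h.ker (⟨a, ha⟩ * ⟨b, hb⟩⁻¹)).2 e))⟩
  · simp only [one_mem, dif_pos]
    rw [← cd_one, ← map_one θ]; rfl
  · simp only [ha, dif_pos, ok_cd]
  · obtain ⟨m, rfl⟩ := ex_cd hg
    obtain ⟨a, rfl⟩ := h.sur m
    exact ⟨a, a.2, by simp⟩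
  · simp only [hn, dif_pos]
    have q := wdk.2.1 j hj
    rw [lp_pow _ hj, h.act ⟨n, hn⟩, cl_L2 (ok_cd _) hj, w2 _ (ok_cl (ok_cd _) q.1) _ (ok_cl (ok_cd _) q.2), cl_cd _ q.1, cl_cd _ q.2,
      (vcv.1 _).1, (vcv.1 _).1]
  · rw [← cS5, ← c, ← card_subgroupOf' (le_normalizer (H := A)), show A.subgroupOf N(A) = θ.ker from ext fun g => (h.ker g).symm,
      ← card_top (G := S5), ← MonoidHom.range_eq_top.2 h.sur, mul_comm, ← index_ker, index_mul_card]
end H10.RG
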