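import Cfsg.Agent.H10.RG.A2

/-! The complement. -/

set_option autoImplicit false
set_option linter.unusedSectionVars false
set_option linter.unusedVariables false
set_option maxRecDepth 100000
open Cfsg Subgroup H19 H0 H15 H10.RF Matrix
open scoped commutatorElement Pointwise
namespace H10.RG
local notation "cj" => H19.cj
open H16 (evA evA_cons apW nth gen ltAll ltAll_zero mem_gen gen_le)
open H15.H2 (Du val forceL side run)
universe u
theorem ext10 {φ ψ : ℕ → ℕ} (h1 : ∀ a b, φ (a ^^^ b) = φ a ^^^ φ b) (h2 : ∀ a b, ψ (a ^^^ b) = ψ a ^^^ ψ b) {n : ℕ}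
    (h : ∀ b < n, φ (2 ^ b) = ψ (2 ^ b)) : ∀ a < 2 ^ n, φ a = ψ a := fun a ha => by
  rw [← Nat.mod_eq_of_lt ha, ← lin_two_pow, map_lin φ (by simpa using h1 0 0) h1, map_lin ψ (by simpa using h2 0 0) h2]
  exact lin_congr _ _ _ _ h
/-- parity -/
noncomputable def par (m : ℕ) : ℕ := lin (fun _ => 1) 10 m
theorem par_l (a b c : ℕ) : par ((a ^^^ b) &&& c) = par (a &&& c) ^^^ par (b &&& c) := by rw [Nat.and_xor_distrib_right, par, lin_xor]; rfl
theorem par_r (a b c : ℕ) : par (c &&& (a ^^^ b)) = par (c &&& a) ^^^ par (c &&& b) := by rw [Nat.and_xor_distrib_left, par, lin_xor]; rfl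
theorem cast_xor (a b : ℕ) : ((a ^^^ b : ℕ) : ZMod 2) = a + b := by
  rw [← ZMod.natCast_mod, ← ZMod.natCast_mod a, ← ZMod.natCast_mod b, show (a ^^^ b) % 2 = a % 2 ^^^ b % 2 from Nat.xor_mod_two_pow (n := 1)]
  rcases Nat.mod_two_eq_zero_or_one a with h | h <;> rcases Nat.mod_two_eq_zero_or_one b with k | k <;>
    simp only [h, k] <;> rfl
namespace F1
noncomputable def evc (l : List ℕ) : ℕ := List.rec I5 (fun k _ ih => force ih fun g => mm g (nth 0 GC k)) l
def pos (b : ℕ) : ℕ := getT 0x0b17162322212f2e2d2c 8 255 b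
theorem s1 : ∀ k < 24, ok (nth 0 GC k) = true ∧ mm (nth 0 GC k) (nth 0 GC k) = I5 ∧ (∀ j < 11, cl11 (nth 0 QT k) j < 1024) ∧
    ∀ b < 10, ∀ c < 10, par (2 ^ b &&& mv (L2 (nth 0 GC k)) (2 ^ c)) = par (QQ k (2 ^ b) &&& 2 ^ c) := by decide +kernel
theorem s2 : (∀ r ∈ RS, ltAll 24 r.1 = 0 ∧ ltAll 24 r.2 = 0 ∧ evc r.1 = evc r.2) ∧ ∀ y ∈ YL, y.2.2.1 = y.2.1 := by decide +kernel
theorem s3 : (∀ r < 105 + 10, ∀ k ∈ (nth ([], []) RS r).2, 10 ≤ k) ∧ (∀ r < 105, ∀ k ∈ (nth ([], []) RS r).1, 10 ≤ k) ∧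
    (∀ j < 10, (nth ([], []) RS (105 + j)).1 = [j]) ∧ ∀ j < 10 * 10, nth 0 PH j < 2 ^ (10 * 105) := by decide +kernel
theorem s4 : ∀ j < 1024, (∀ b < 10, (par (2 ^ b &&& j) : ZMod 2) = if j.testBit b then 1 else 0) ∧
    force (evc (CS.bw 10 j)) (fun g => allTo (fun b => tb g (pos b) == tb j b) 10) = true := by decide +kernel
theorem s5 : ∀ b < 10, (∃ y ∈ TG, y.1 = [b, b]) ∧ ∀ a < b, ∃ y ∈ TG, y.1.take 3 = [b, a, b] ∧ ltAll b (y.1.drop 3) = 0 := by
  decide +kernel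
theorem bits {i j : ℕ} (hi : i < 1024) (hj : j < 1024) (h : ∀ b < 10, i.testBit b = j.testBit b) : i = j :=
  Nat.eq_of_testBit_eq fun b => by
    by_cases hb : b < 10
    · exact h b hb
    have : 2 ^ 10 ≤ 2 ^ b := Nat.pow_le_pow_right two_pos (not_lt.1 hb)
    rw [Nat.testBit_lt_two_pow (by omega), Nat.testBit_lt_two_pow (by omega)]
theorem bnd {G : Type*} [Group G] [Finite G] {e : ℕ → G} (h : ∀ y ∈ TG, evA e y.1 = 1) : ∀ n ≤ 10, #(gen e n) ≤ 2 ^ n
  | 0, _ => by rw [H16.gen_zero, card_bot]; rfl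
  | n + 1, hn => by
    obtain ⟨⟨y, hy, q⟩, k⟩ := s5 n hn
    have s : e n * e n = 1 := by simpa [q] using h y hy
    have nm : e n ∈ N(gen e n) := mem_norm_of_cj_le (by
      rw [gen, cj_closure, closure_le]
      rintro _ ⟨_, ⟨a, ha, rfl⟩, rfl⟩
      obtain ⟨y, hy, q, r⟩ := k a ha
      have := h y hy
      rw [← List.take_append_drop 3 y.1, q, H16.evA_append] at this
      rw [inv_eq_of_mul_eq_one_right s]
      have t := inv_mem (H16.evA_mem_gen e (W := y.1.drop 3) (ltAll_zero r))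
      rw [← eq_inv_of_mul_eq_one_right this] at t
      simpa [gen] using t)
    have l : gen e (n + 1) ≤ gen e n ⊔ zpowers (e n) := gen_le.2 fun j hj => (Nat.lt_succ_iff_lt_or_eq.1 hj).elim
      (fun q => mem_sup_left (mem_gen e q)) fun q => q ▸ mem_sup_right (mem_zpowers _)
    refine (card_le l).trans ((Nat.le_of_dvd (Nat.mul_pos (card_pos _) (card_pos _)) (card_sup_dvd (zpowers_le.2 nm))).trans ?_)
    rw [pow_succ, Nat.card_zpowers]
    exact Nat.mul_le_mul (bnd h n (by omega)) (orderOf_le_of_pow_eq_one two_pos (by rwa [pow_two]))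
end F1
open F1 in
theorem f1 : F1.{u} := by
  intro G _ _ A θ β s c h
  obtain ⟨v, w⟩ := exIW s c h
  choose x hx using fun k : ℕ => (show ∃ m, k < 24 → cd m = nth 0 GC k from
    if hk : k < 24 then (ex_cd (s1 k hk).1).imp fun _ e _ => e else ⟨1, fun q => absurd q hk⟩)
  have ev : ∀ l : List ℕ, (∀ k ∈ l, k < 24) → cd (evA x l) = evc l := fun l hl => by
    induction l with
    | nil => exact cd_one
    | cons k l ih =>
      rw [evA_cons, cd_mul, ih fun j hj => hl j (List.mem_cons_of_mem _ hj), hx k (hl k List.mem_cons_self)]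
      exact (force_eq (evc l) fun g => mm g (nth 0 GC k)).symm
  choose co c1 using fun a : G => (show ∃ j, a ∈ A → j < 1024 ∧ v j = a from
    (em (a ∈ A)).elim (fun q => (w.vs a q).imp fun _ e _ => e) fun n => ⟨0, fun q => absurd q n⟩)
  have c2 : ∀ j < 1024, co (v j) = j := fun j hj => w.vi _ (c1 _ (w.vm j)).1 j hj (c1 _ (w.vm j)).2
  have kk : ∀ a ∈ θ.ker, ∃ j < 1024, v j = a := fun a ha => w.vs _ ((h.ker a).1 ha)
  have k2 : ∀ j, (⟨v j, le_normalizer (w.vm j)⟩ : N(A)) ∈ θ.ker := fun j => (h.ker _).2 (w.vm j)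
  have D : Du θ (fun i a => par (i &&& co a)) x QQ 24 10 RS := ⟨fun i j a => by rw [par_l, cast_xor], fun i a ha b hb => ?_,
    fun k hk u hu i hi => ⟨(mv_eq _ i).trans_lt (lin_lt _ _ 10 (s1 k hk).2.2.1 i), fun a ha => ?_⟩, fun r hr => ⟨(s2.1 r hr).1, (s2.1 r hr).2.1,
      cd_inj (by rw [ev _ (ltAll_zero (s2.1 r hr).1), ev _ (ltAll_zero (s2.1 r hr).2.1), (s2.1 r hr).2.2])⟩⟩
  rotate_left
  · obtain ⟨p, hp, e⟩ := kk a ha
    obtain ⟨q, hq, f⟩ := kk b hb
    rw [coe_mul, ← e, ← f, ← w.vx, c2 p hp, c2 q hq, c2 _ (Nat.xor_lt_two_pow (n := 10) hp hq), par_r, cast_xor]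
  · obtain ⟨p, hp, e⟩ := kk a ha
    have := w.ac _ (inv_mem u.2) p
    simp only [inv_mem u.2, dif_pos, inv_inv] at this
    rw [show θ ⟨(u : G)⁻¹, inv_mem u.2⟩ = x k from (map_inv θ u).trans ((congrArg _ hu).trans (inv_eq_of_mul_eq_one_right
      (cd_inj (by rw [cd_mul, hx k hk, (s1 k hk).2.1, cd_one])))), hx k hk] at this
    rw [coe_mul, coe_mul, coe_inv, ← e, this, c2 p hp, c2 _ (L2_lt _ _)]
    exact congrArg _ (ext10 (φ := fun i => par (i &&& mv _ p)) (ψ := fun i => par (QQ k i &&& p)) (fun _ _ => par_l _ _ _)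
      (fun a b => by rw [QQ, mv_xor, par_l]; rfl) (fun b hb => ext10 (φ := fun p => par (2 ^ b &&& mv _ p)) (ψ := fun p => par (QQ k (2 ^ b) &&& p))
        (fun a b => by rw [mv_xor, par_r]) (fun _ _ => par_r _ _ _) ((s1 k hk).2.2.2 b hb) p hp) i hi)
  obtain ⟨e, he, h1⟩ := D.choose h.sur (fun f => by
    have q : ∀ n, ∃ j < 2 ^ n, ∀ b < n, (if j.testBit b then 1 else 0) = f b := fun n => by
      induction n with
      | zero => exact ⟨0, by decide, by simp⟩
      | succ n ih =>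
        obtain ⟨j, hj, q⟩ := ih
        rcases (by decide : ∀ a : ZMod 2, a = 0 ∨ a = 1) (f n) with r | r
        · refine ⟨j, by omega, fun b hb => (Nat.lt_succ_iff_lt_or_eq.1 hb).elim (q b) fun t => ?_⟩
          rw [t, r, Nat.testBit_lt_two_pow hj]; rfl
        · refine ⟨2 ^ n + j, by omega, fun b hb => (Nat.lt_succ_iff_lt_or_eq.1 hb).elim (fun t => ?_) fun t => ?_⟩
          · rw [Nat.testBit_two_pow_add_gt t, q b t]
          · rw [t, r, Nat.testBit_two_pow_add_eq, Nat.testBit_lt_two_pow hj]; rfl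
    obtain ⟨j, hj, q⟩ := q 10
    exact ⟨_, k2 j, fun b hb => by rw [← q b hb, ← (s4 j hj).1 b hb]; simp only [c2 j hj]⟩) s3
  have r1 : ∀ y, gd y (ac y) = true → ∃ a ∈ θ.ker, evA e y.2.1 = evA e y.2.2.1 * a ∧
      (par (2 ^ y.1 &&& co a) : ZMod 2) = val (fun i (a : N(A)) => par (i &&& co a)) e RS 10 (ac y) := fun y hy => by
    simp only [gd, Bool.and_eq_true, Nat.blt_eq, Nat.beq_eq] at hy
    have := D.run he (Nat.pow_lt_pow_right one_lt_two hy.1.1) (ltAll_zero hy.1.2) hy.2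
    rwa [D.val0, zero_add] at this
  obtain ⟨b1, b2⟩ := chk_ok big
  obtain ⟨b3, b4⟩ := chk_ok b2
  have z := elim_ok' (P := fun m => val (fun i (a : N(A)) => (par (i &&& co a) : ZMod 2)) e RS 10 m = 0) D.val0
    (fun a b ha hb => by rw [D.xor, ha, hb, add_zero]) b4 fun m hm => (List.mem_append.1 hm).elim (fun hm => by
      obtain ⟨y, hy, rfl⟩ := List.mem_map.1 hm
      obtain ⟨a, -, q, r⟩ := r1 y (b1 y hy)
      rw [s2.2 y hy, left_eq_mul] at q
      rw [← r, q]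
      exact D.one _) (h1 m)
  have v0 : v 0 = 1 := by simpa using w.vx 0 0
  have rel : ∀ y ∈ TG, evA e y.1 = 1 := fun y hy => by
    have q : ∀ b < 10, evA e y.1 ∈ θ.ker ∧ (par (2 ^ b &&& co (evA e y.1 : N(A))) : ZMod 2) = 0 := fun b hb => by
      have m : (b, y.1, [], y.2) ∈ YT := List.mem_flatMap.2 ⟨y, hy, List.mem_map_of_mem (List.mem_range.2 hb)⟩
      obtain ⟨a, ha, q, r⟩ := r1 _ (b3 _ m)
      rw [show evA e y.1 = a from q.trans (one_mul a)]
      exact ⟨ha, r.trans (z _ (List.mem_map_of_mem m))⟩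
    obtain ⟨j, hj, f⟩ := kk _ (q 0 (by decide)).1
    refine Subtype.ext (f.symm.trans (bits hj (by decide : 0 < 1024) (fun b hb => ?_) ▸ v0))
    have := (q b hb).2
    rw [← f, c2 j hj, (s4 j hj).1 b hb] at this
    revert this
    cases j.testBit b <;> simp
  have m1 : (gen e 10).map θ = gen x 10 := by
    rw [H16.map_gen]
    exact le_antisymm (gen_le.2 fun k hk => (he k (by omega)).symm ▸ mem_gen x hk)
      (gen_le.2 fun k hk => he k (by omega) ▸ mem_gen (fun k => θ (e k)) hk)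
  have lb : 1024 ≤ #(gen x 10) := by
    simpa using cos_lb (bot_le : ⊥ ≤ gen x 10) (m := 1024) (fun i => evA x (CS.bw 10 i))
      (fun i _ => H16.evA_mem_gen x (CS.bw_lt _ _)) fun i hi j hj q => bits hi hj fun b hb => by
        have p := fun i => ev (CS.bw 10 i) fun k hk => (CS.bw_lt _ _ k hk).trans (by decide)
        have t := fun i hi => (s4 i hi).2
        simp only [force_eq, allTo_iff, beq_iff_eq, tb_eq] at t
        rw [← t i hi b hb, ← t j hj b hb, ← p, ← p, inv_mul_eq_one.1 (mem_bot.1 q)]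
  have ub := bnd rel 10 le_rfl
  have bj := (θ.subgroupMap_surjective (gen e 10)).bijective_of_nat_card_le (by rw [m1]; omega)
  have ix := (gen x 10).card_mul_index
  rw [cS5, show #(gen x 10) = 1024 by have := Nat.card_le_card_of_surjective _ bj.2; rw [m1] at this; omega] at ix
  have ck : θ.ker = A.subgroupOf N(A) := ext fun g => h.ker g
  have : IsMulCommutative θ.ker := ⟨⟨fun a b => Subtype.ext (Subtype.ext (csq s ((h.ker _).1 a.2) ((h.ker _).1 b.2)))⟩⟩
  obtain ⟨H, hH⟩ := _root_.H2.gaschutz_exists θ.ker ((gen x 10).comap θ) (MonoidHom.ker_le_comap _ _)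
    (by rw [index_comap_of_surjective _ h.sur, ck, card_subgroupOf' le_normalizer, c, show (gen x 10).index = 9765 by omega]; decide)
    (gen e 10) (eq_bot_iff.2 fun a ha => congrArg Subtype.val (bj.1 (a₁ := ⟨a, ha.1⟩) (a₂ := 1)
      (Subtype.ext (ha.2.trans (map_one θ).symm)))) (by rw [← m1, comap_map_eq, sup_comm])
  let φ := MulEquiv.ofBijective (θ.comp H.subtype) ⟨(injective_iff_map_eq_one _).2 fun a ha =>
    Subtype.ext (mem_bot.1 (hH.disjoint.le_bot ⟨ha, a.2⟩)), fun m => by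
      obtain ⟨g, rfl⟩ := h.sur m
      obtain ⟨⟨y, z⟩, q, -⟩ := hH.existsUnique g
      exact ⟨z, by rw [← q, map_mul, show θ y = 1 from y.2, one_mul]; rfl⟩⟩
  exact ⟨H.subtype.comp φ.symm.toMonoidHom, φ.apply_symm_apply⟩
end H10.RG
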