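import Cfsg.Agent.H10.RG.A3
import Cfsg.Agent.H8.RG2

/-! The split extension in coordinates and its pattern subgroups. -/

set_option autoImplicit false
set_option linter.unusedSectionVars false
set_option linter.unusedVariables false
set_option maxRecDepth 100000
set_option synthInstance.maxSize 4000
open Cfsg Subgroup H19 H0 H15 H10.RF Matrix
open scoped commutatorElement Pointwise
namespace H10.RG
local notation "cj" => H19.cj
/-- `x` is contained in the mask `m` -/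
def sb (x m : ℕ) : Prop := x &&& m = x
instance (x m : ℕ) : Decidable (sb x m) := Nat.decEq _ _
theorem sb_iff {x m : ℕ} : sb x m ↔ ∀ i, x.testBit i = true → m.testBit i = true :=
  ⟨fun h i k => by rw [← h, Nat.testBit_and, Bool.and_eq_true] at k; exact k.2, fun h => Nat.eq_of_testBit_eq fun i => by
    rw [Nat.testBit_and]; cases k : x.testBit i; exacts [rfl, h i k]⟩
theorem sb0 (m : ℕ) : sb 0 m := Nat.zero_and m
theorem sb.xor {x y m : ℕ} (h : sb x m) (k : sb y m) : sb (x ^^^ y) m := by rw [sb, Nat.and_xor_distrib_right, h, k]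
theorem sb.trans {x y m : ℕ} (h : sb x y) (k : sb y m) : sb x m := sb_iff.2 fun i e => sb_iff.1 k i (sb_iff.1 h i e)
theorem sb.le {x m : ℕ} (h : sb x m) : x ≤ m := h ▸ Nat.and_le_right
theorem sb_lt {x : ℕ} (n : ℕ) : sb x (2 ^ n - 1) ↔ x < 2 ^ n := by rw [sb, Nat.and_two_pow_sub_one_eq_mod, Nat.mod_eq_iff_lt (by positivity)]
theorem lin_fx (f g : ℕ → ℕ) (n a : ℕ) : lin (fun j => f j ^^^ g j) n a = lin f n a ^^^ lin g n a := by
  induction n with
  | zero => exact (Nat.xor_self 0).symm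
  | succ n ih => simp only [lin_succ, ih]; split_ifs <;> simp only [Nat.xor_zero, Nat.xor_assoc, Nat.xor_left_comm]
theorem lin_sb {f : ℕ → ℕ} {n a m : ℕ} (ha : a < 2 ^ n) (h : ∀ j < n, a.testBit j = true → sb (f j ^^^ 2 ^ j) m) :
    sb (lin f n a ^^^ a) m := by
  have := lin_induction' (sb · m) (sb0 m) (fun _ _ => sb.xor) _ n a h
  rwa [lin_fx, lin_two_pow, Nat.mod_eq_of_lt ha] at this
/-- the code of an elementary matrix -/
def ee (i j : ℕ) : ℕ := Nat.xor I5 (Nat.pow 2 (Nat.add (Nat.mul 11 j) i))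
/-- the action on the exterior square -/
noncomputable def Lv (g a : ℕ) : ℕ := mv (L2 g) a
theorem Lv_lt (g a : ℕ) : Lv g a < 1024 := L2_lt g a
theorem Lv_xor (g a b : ℕ) : Lv g (a ^^^ b) = Lv g a ^^^ Lv g b := mv_xor _ a b
theorem x10 {a b : ℕ} (ha : a < 1024) (hb : b < 1024) : a ^^^ b < 1024 := Nat.xor_lt_two_pow (n := 10) ha hb
/-- `g` differs from the identity only in the positions of `μ` -/
def inP (μ g : ℕ) : Prop := ∀ j < 5, sb (cl11 g j ^^^ 2 ^ j) (cl11 μ j)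
instance (μ g : ℕ) : Decidable (inP μ g) := Nat.decidableBallLT _ _
/-- the commutators of the pattern `μ` with the mask `m` lie in the mask `n` -/
def lm (μ m n : ℕ) : Prop := m < 1024 ∧ ∀ k < 11, m.testBit k = true → ∀ u < 32, sb (u ^^^ 2 ^ pp k) (cl11 μ (pp k)) →
  ∀ w < 32, sb (w ^^^ 2 ^ qq k) (cl11 μ (qq k)) → sb (wd u w ^^^ 2 ^ k) n
instance (μ m n : ℕ) : Decidable (lm μ m n) := by unfold lm; infer_instance
def tr (μ ν : ℕ) : Prop := ∀ j < 5, ∀ i < 5, (cl11 ν j).testBit i = true → sb (cl11 μ i) (cl11 μ j)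
instance (μ ν : ℕ) : Decidable (tr μ ν) := by unfold tr; infer_instance
def tr' (μ ν : ℕ) : Prop := ∀ j < 5, ∀ i < 5, (cl11 μ j).testBit i = true → sb (cl11 ν i) (cl11 μ j)
instance (μ ν : ℕ) : Decidable (tr' μ ν) := by unfold tr'; infer_instance
/-- patterns which define subgroups -/
def gd (m μ : ℕ) : Prop := lm μ m m ∧ tr μ μ
instance (m μ : ℕ) : Decidable (gd m μ) := by unfold gd; infer_instance
variable {a b f g i j m n μ ν : ℕ}
theorem lm.sb (h : lm μ m n) (o : ok g = true) (p : inP μ g) (ha : sb a m) : sb (Lv g a ^^^ a) n := by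
  rw [Lv, mv_eq]
  exact lin_sb (by have := ha.le; have := h.1; omega) fun k hk t => cl_L2 o hk ▸ h.2 k hk (sb_iff.1 ha k t) _ (ok_cl o (wdk.2.1 k hk).1)
    (p _ (wdk.2.1 k hk).1) _ (ok_cl o (wdk.2.1 k hk).2) (p _ (wdk.2.1 k hk).2)
theorem lm.sb' (h : lm μ m m) (o : ok g = true) (p : inP μ g) (ha : RG.sb a m) : RG.sb (Lv g a) m := by
  simpa using (h.sb o p ha).xor ha
theorem a5_xor (g a b : ℕ) : a5 g (a ^^^ b) = a5 g a ^^^ a5 g b := by simp only [a5_eq, lin_xor]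
theorem a5_pow (hj : j < 5) : a5 g (2 ^ j) = cl11 g j := by rw [a5_eq, lin_pow _ hj]
theorem a5_32 (o : ok g = true) (a : ℕ) : a5 g a < 32 := a5_eq g a ▸ lin_lt _ _ 5 (fun j hj => ok_cl o hj) a
theorem a5_mm (o : ok f = true) (p : ok g = true) (a : ℕ) : a5 (mm f g) a = a5 f (a5 g a) := by
  obtain ⟨x, rfl⟩ := ex_cd o
  obtain ⟨y, rfl⟩ := ex_cd p
  rw [← cd_mul, a5_cd, a5_cd x, vec_a5, mulVec_mulVec]; rfl
theorem a5_sb (p : inP μ g) (ha : a < 32) (h : ∀ i < 5, a.testBit i = true → sb (cl11 μ i) n) : sb (a5 g a ^^^ a) n :=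
  a5_eq g a ▸ lin_sb (n := 5) ha fun i hi t => (p i hi).trans (h i hi t)
theorem inP.bit (p : inP μ g) (hj : j < 5) (t : (cl11 g j).testBit i = true) : i = j ∨ (cl11 μ j).testBit i = true :=
  (em (i = j)).imp_right fun e => sb_iff.1 (p j hj) i (by rw [Nat.testBit_xor, t, Nat.testBit_two_pow_of_ne (Ne.symm e)]; rfl)
theorem sb_rfl (m : ℕ) : sb m m := Nat.and_self m
theorem inP.mm (t : tr μ μ) (p : inP μ f) (q : inP μ g) (o : ok g = true) : inP μ (mm f g) := fun j hj => by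
  have := (a5_sb p (ok_cl o hj) (n := cl11 μ j) fun i hi e => (q.bit hj e).elim (· ▸ sb_rfl _) (t j hj i hi)).xor (q j hj)
  rwa [Nat.xor_assoc, Nat.xor_xor_cancel_left, ← cl_mm f g hj] at this
theorem inP.cj {g' : ℕ} (t : tr μ ν) (t' : tr' μ ν) (p : inP μ f) (q : inP ν g) (q' : inP ν g') (o : ok f = true) (o1 : ok g = true)
    (o2 : ok g' = true) (e : RG.mm g g' = I5) : inP μ (RG.mm (RG.mm g f) g') := fun j hj => by
  have h1 := a5_sb p (ok_cl o2 hj) (n := cl11 μ j) fun i hi e => (q'.bit hj e).elim (· ▸ sb_rfl _) (t j hj i hi)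
  have h2 := (a5_sb q (Nat.xor_lt_two_pow (n := 5) (a5_32 o _) (ok_cl o2 hj)) fun i hi e => t' j hj i hi (sb_iff.1 h1 i e)).xor h1
  rw [Nat.xor_xor_cancel_right, a5_xor, ← cl_mm g g' hj, e, (by decide : ∀ j < 5, cl11 I5 j = 2 ^ j) j hj] at h2
  rwa [cl_mm _ _ hj, a5_mm o1 o]
theorem inP.mono (p : inP μ g) (h : ∀ j < 5, sb (cl11 μ j) (cl11 ν j)) : inP ν g := fun j hj => (p j hj).trans (h j hj)
theorem okI : ok I5 = true ∧ mm I5 I5 = I5 ∧ ∀ j < 5, cl11 I5 j ^^^ 2 ^ j = 0 := by decide +kernel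
theorem inP_I (μ : ℕ) : inP μ I5 := fun j hj => okI.2.2 j hj ▸ sb0 _
theorem ok_pk (o : ok g = true) : g = cl11 g 0 + 2048 * (cl11 g 1 + 2048 * (cl11 g 2 + 2048 * (cl11 g 3 + 2048 * cl11 g 4))) := by
  have e : pk (cl11 g) 5 0 = g := .trans (pk_congr fun j hj => by
    rw [Nat.land_eq, show 31 = 2 ^ 5 - 1 from rfl, Nat.and_two_pow_sub_one_of_lt_two_pow (ok_cl o (by omega))])
    (Nat.eq_of_beq_eq_true ((band_iff _ _).1 o).1)
  exact e.symm
theorem ok_ext (o : ok f = true) (p : ok g = true) (h : ∀ j < 5, cl11 f j = cl11 g j) : f = g := by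
  rw [ok_pk o, ok_pk p, h 0 (by decide), h 1 (by decide), h 2 (by decide), h 3 (by decide), h 4 (by decide)]
theorem inP0 (o : ok g = true) (p : inP 0 g) : g = I5 := ok_ext o okI.1 fun j hj => by
  have := (p j hj).le
  rw [show cl11 0 j = 0 by simp [cl11, getT], Nat.le_zero, Nat.xor_eq_zero_iff] at this
  exact this.trans ((Nat.xor_eq_zero_iff.1 (okI.2.2 j hj)).symm)
/-- upper unitriangular matrices -/
def ug (i : ℕ) : ℕ := Nat.xor I5 (Nat.add (Nat.add (Nat.shiftLeft (Nat.land i 15) 44) (Nat.shiftLeft (Nat.land (Nat.shiftRight i 4) 7) 33))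
  (Nat.add (Nat.shiftLeft (Nat.land (Nat.shiftRight i 7) 3) 22) (Nat.shiftLeft (Nat.land (Nat.shiftRight i 9) 1) 11)))
def ui (g : ℕ) : ℕ := Nat.add (Nat.add (Nat.land (Nat.shiftRight g 44) 15) (Nat.shiftLeft (Nat.land (Nat.shiftRight g 33) 7) 4))
  (Nat.add (Nat.shiftLeft (Nat.land (Nat.shiftRight g 22) 3) 7) (Nat.shiftLeft (Nat.land (Nat.shiftRight g 11) 1) 9))
def mU : ℕ := 0xf00e00c00800
def mH : ℕ := 0xf00000000000
def mF : ℕ := 0x300600c00000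
def m3 : ℕ := 0x700e00000000
def mP : ℕ := 0xf01e03c0780f
def mL : ℕ := 0x1e03c0780f
def mY : ℕ := 0x1f03e07c01803
theorem ugk : ∀ i < 1024, ok (ug i) = true ∧ inP mU (ug i) ∧ ui (ug i) = i := by decide +kernel
theorem ex_ug (o : ok g = true) (p : inP mU g) : ∃ i < 1024, g = ug i := by
  have k : ∀ a < 32, sb (a ^^^ 2 ^ 0) (cl11 mU 0) → ∀ b < 32, sb (b ^^^ 2 ^ 1) (cl11 mU 1) → ∀ c < 32, sb (c ^^^ 2 ^ 2) (cl11 mU 2) →
      ∀ d < 32, sb (d ^^^ 2 ^ 3) (cl11 mU 3) → ∀ e < 32, sb (e ^^^ 2 ^ 4) (cl11 mU 4) →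
      force (a + 2048 * (b + 2048 * (c + 2048 * (d + 2048 * e)))) (fun g => Nat.blt (ui g) 1024 && g == ug (ui g)) = true := by
    decide +kernel
  have := k _ (ok_cl o (by decide)) (p 0 (by decide)) _ (ok_cl o (by decide)) (p 1 (by decide)) _ (ok_cl o (by decide)) (p 2 (by decide))
    _ (ok_cl o (by decide)) (p 3 (by decide)) _ (ok_cl o (by decide)) (p 4 (by decide))
  rw [← ok_pk o, force_eq, Bool.and_eq_true, Nat.blt_eq, beq_iff_eq] at this
  exact ⟨_, this⟩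

variable {G : Type*} [Group G]
/-- the split extension in coordinates -/
structure IK (A : Subgroup G) (ρ : G → ℕ) (v K : ℕ → G) : Prop extends IW A ρ v where
  kn : ∀ g, K g ∈ N(A)
  kr : ∀ g, ok g = true → ρ (K g) = g
  km : ∀ f g, ok f = true → ok g = true → K (mm f g) = K f * K g
theorem exIK [Finite G] {A : Subgroup G} (s : ∀ a ∈ A, a * a = 1) (c : #A = 1024) (e : Nonempty (Quo A ≃* S5))
    (i : ∀ W ≤ A, N(A) ≤ N(W) → W = ⊥ ∨ W = A) : ∃ ρ v K, IK A ρ v K := by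
  obtain ⟨θ, β, h⟩ := H8.RG.f0 A s c e i
  obtain ⟨κ, hκ⟩ := f1 A θ β s c h
  obtain ⟨v, w⟩ := exIW s c h
  choose x hx using fun g : ℕ => (show ∃ m, ok g = true → cd m = g from
    (em (ok g = true)).elim (fun q => (ex_cd q).imp fun _ e _ => e) fun n => ⟨1, fun q => absurd q n⟩)
  refine ⟨_, v, fun g => κ (x g), w, fun g => (κ (x g)).2, fun g o => ?_, fun f g o p => ?_⟩
  · simp only [SetLike.coe_mem, dif_pos, hκ, hx g o]
  · rw [← coe_mul, ← map_mul, show x (mm f g) = x f * x g from cd_inj (by rw [cd_mul, hx f o, hx g p, hx _ (ok_mm o p)])]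
/-- pattern subgroups -/
def PS (v K : ℕ → G) (m μ : ℕ) : Subgroup G := closure {x | ∃ a g, sb a m ∧ ok g = true ∧ inP μ g ∧ x = v a * K g}
/-- the third elementary abelian subgroup of order `2 ^ 10` -/
def X1 (v K : ℕ → G) : Subgroup G := closure {x | ∃ a < 1024, x = v a * K (ug (a / 64))}
variable {A : Subgroup G} {ρ : G → ℕ} {v K : ℕ → G} {x y : G}
theorem el_PS (ha : sb a m) (o : ok g = true) (p : inP μ g) : v a * K g ∈ PS v K m μ := subset_closure ⟨a, g, ha, o, p, rfl⟩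
theorem PS_le (h1 : sb m n) (h2 : ∀ j < 5, sb (cl11 μ j) (cl11 ν j)) : PS v K m μ ≤ PS v K n ν :=
  closure_mono fun _ ⟨a, g, ha, o, p, e⟩ => ⟨a, g, ha.trans h1, o, p.mono h2, e⟩
namespace IK
variable (h : IK A ρ v K)
include h
theorem v0 : v 0 = 1 := by simpa using h.vx 0 0
theorem vv (a : ℕ) : v a * v a = 1 := h.sq _ (h.vm a)
theorem vinv (a : ℕ) : (v a)⁻¹ = v a := inv_eq_of_mul_eq_one_right (h.vv a)
theorem v1 (ha : a < 1024) : v a = 1 ↔ a = 0 := ⟨fun e => h.vi _ ha _ (by decide) (e.trans h.v0.symm), fun e => e ▸ h.v0⟩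
theorem vN (a : ℕ) : v a ∈ N(A) := le_normalizer (h.vm a)
theorem K1 : K I5 = 1 := by simpa [okI.2.1] using h.km _ _ okI.1 okI.1
theorem cjv (hx : x ∈ N(A)) (a : ℕ) : x * v a * x⁻¹ = v (Lv (ρ x) a) := h.ac x hx a
theorem Kcj (o : ok g = true) (a : ℕ) : K g * v a * (K g)⁻¹ = v (Lv g a) := by rw [h.cjv (h.kn g), h.kr g o]
theorem Kv (o : ok g = true) (a : ℕ) : K g * v a = v (Lv g a) * K g := by rw [← h.Kcj o, inv_mul_cancel_right]
theorem cmv (hx : x ∈ N(A)) (a : ℕ) : ⁅x, v a⁆ = v (Lv (ρ x) a ^^^ a) := by rw [commutatorElement_def, h.cjv hx, h.vinv, h.vx]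
theorem fixi (hx : x ∈ N(A)) (ha : a < 1024) : x ∈ C[v a] ↔ Lv (ρ x) a = a :=
  ⟨fun e => h.vi _ (Lv_lt _ _) _ ha ((h.cjv hx a).symm.trans (cjc e)), fun e => of_cjc ((h.cjv hx a).trans (congrArg v e))⟩
theorem elm (o : ok f = true) (p : ok g = true) (a b : ℕ) : v a * K f * (v b * K g) = v (a ^^^ Lv f b) * K (mm f g) := by
  rw [h.vx, h.km f g o p, mul_assoc, ← mul_assoc (K f), h.Kv o]; simp only [mul_assoc]
theorem elN (a g : ℕ) : v a * K g ∈ N(A) := mul_mem (h.vN a) (h.kn g)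
theorem rA (hx : x ∈ N(A)) : ρ x = I5 ↔ x ∈ A := by rw [← h.one, h.eqv x hx 1 (one_mem _), inv_one, mul_one]
theorem rl (hx : x ∈ A) (hy : y ∈ N(A)) : ρ (x * y) = ρ y := (h.eqv _ (mul_mem (le_normalizer hx) hy) _ hy).2 (by simpa using hx)
theorem rel (o : ok g = true) (a : ℕ) : ρ (v a * K g) = g := (h.rl (h.vm a) (h.kn g)).trans (h.kr g o)
theorem dec (hx : x ∈ N(A)) : ∃ a < 1024, x = v a * K (ρ x) :=
  let ⟨a, ha, e⟩ := h.vs _ ((h.eqv x hx _ (h.kn (ρ x))).1 (h.kr _ (h.okr x hx)).symm); ⟨a, ha, by rw [e, inv_mul_cancel_right]⟩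
theorem uniq (ha : a < 1024) (hb : b < 1024) (o : ok f = true) (p : ok g = true) (e : v a * K f = v b * K g) : a = b ∧ f = g := by
  have : f = g := by rw [← h.rel o a, e, h.rel p]
  exact ⟨h.vi a ha b hb (mul_right_cancel (this ▸ e)), this⟩
theorem Kinj (o : ok f = true) (p : ok g = true) (e : K f = K g) : f = g := by rw [← h.kr f o, e, h.kr g p]
theorem Ksq (o : ok g = true) (e : mm g g = I5) : K g * K g = 1 := by rw [← h.km g g o o, e, h.K1]
theorem Kcm (o : ok f = true) (p : ok g = true) (e : mm f g = mm g f) : K f * K g = K g * K f := by rw [← h.km f g o p, e, h.km g f p o]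
theorem exθ : ∃ θ : N(A) →* S5, ∀ x, cd (θ x) = ρ x := by
  choose θ e using fun x : N(A) => ex_cd (h.okr x x.2)
  exact ⟨MonoidHom.mk' θ fun x y => cd_inj (by rw [cd_mul, e, e, e, coe_mul, h.mul _ x.2 _ y.2]), e⟩
/-- the complement -/
noncomputable def kap : S5 →* G := MonoidHom.mk' (fun m => K (cd m)) fun m n => by rw [cd_mul, h.km _ _ (ok_cd m) (ok_cd n)]
theorem Kinv (o : ok g = true) : K (ρ (K g)⁻¹) = (K g)⁻¹ := by
  obtain ⟨m, rfl⟩ := ex_cd o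
  rw [show (K (cd m))⁻¹ = K (cd m⁻¹) from (map_inv h.kap m).symm, h.kr _ (ok_cd _)]
theorem vP (ha : sb a m) : v a ∈ PS v K m μ := by simpa [h.K1] using el_PS (v := v) (K := K) ha okI.1 (inP_I μ)
theorem KP (o : ok g = true) (p : inP μ g) : K g ∈ PS v K m μ := by simpa [h.v0] using el_PS (v := v) (K := K) (sb0 m) o p
theorem PN : PS v K m μ ≤ N(A) := (closure_le _).2 fun _ ⟨a, g, _, _, _, e⟩ => e ▸ h.elN a g
variable [Finite G]
theorem mem_PS (d : gd m μ) : x ∈ PS v K m μ ↔ ∃ a g, sb a m ∧ ok g = true ∧ inP μ g ∧ x = v a * K g :=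
  ⟨fin_ind (P := fun x => ∃ a g, sb a m ∧ ok g = true ∧ inP μ g ∧ x = v a * K g) ⟨0, I5, sb0 m, okI.1, inP_I μ, by rw [h.v0, h.K1, one_mul]⟩
    (by rintro _ _ ⟨b, g, hb, o, p, rfl⟩ ⟨a, f, ha, o', p', rfl⟩
        exact ⟨_, _, ha.xor (d.1.sb' o' p' hb), ok_mm o' o, p'.mm d.2 p o, h.elm o' o a b⟩) x, fun e => subset_closure e⟩
theorem el_mem (d : gd m μ) (ha : a < 1024) (o : ok g = true) : v a * K g ∈ PS v K m μ ↔ sb a m ∧ inP μ g :=
  ⟨fun k => by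
    obtain ⟨b, f, hb, o', p, e⟩ := (h.mem_PS d).1 k
    obtain ⟨rfl, rfl⟩ := h.uniq ha (hb.le.trans_lt d.1.1) o o' e
    exact ⟨hb, p⟩, fun k => el_PS k.1 o k.2⟩
theorem v_mem (d : gd m μ) (ha : a < 1024) : v a ∈ PS v K m μ ↔ sb a m := by
  simpa [h.K1, inP_I] using h.el_mem d ha okI.1
theorem K_mem (d : gd m μ) (o : ok g = true) : K g ∈ PS v K m μ ↔ inP μ g := by
  simpa [h.v0, sb0] using h.el_mem d (a := 0) (by decide) o
theorem rP (d : gd m μ) (hx : x ∈ PS v K m μ) : inP μ (ρ x) := by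
  obtain ⟨a, g, -, o, p, rfl⟩ := (h.mem_PS d).1 hx
  rwa [h.rel o]
theorem memP (hx : x ∈ N(A)) (p : inP μ (ρ x)) : x ∈ PS v K 1023 μ :=
  let ⟨a, ha, e⟩ := h.dec hx; e ▸ el_PS ((sb_lt 10).2 ha) (h.okr x hx) p
theorem memV (d : gd m μ) (hx : x ∈ PS v K m μ) (k : x ∈ A) : ∃ a, sb a m ∧ x = v a :=
  let ⟨a, ha, e⟩ := h.vs x k; ⟨a, (h.v_mem d ha).1 (e ▸ hx), e.symm⟩
theorem PA : PS v K m 0 ≤ A := (closure_le _).2 fun _ ⟨a, g, _, o, p, e⟩ => by rw [e, inP0 o p, h.K1, mul_one]; exact h.vm a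
theorem AP : A ≤ PS v K 1023 μ := fun x hx => let ⟨a, ha, e⟩ := h.vs x hx; e ▸ h.vP ((sb_lt 10).2 ha)
theorem PiA (d : gd m μ) : PS v K m μ ⊓ A = PS v K m 0 :=
  le_antisymm (fun x hx => let ⟨a, ha, e⟩ := h.memV d hx.1 hx.2; e ▸ h.vP ha)
    (le_inf (PS_le (sb_rfl m) fun j _ => by rw [show cl11 0 j = 0 by simp [cl11, getT]]; exact sb0 _) h.PA)
theorem nrm (d : gd m μ ∧ gd n ν ∧ lm ν m m ∧ lm μ n m ∧ tr μ ν ∧ tr' μ ν) : PS v K n ν ≤ N(PS v K m μ) := fun x hx =>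
  mem_norm_of_cj_le fun y hy => by
    obtain ⟨z, hz, rfl⟩ := mem_cj'.1 hy
    obtain ⟨b, f, hb, o', p', rfl⟩ := (h.mem_PS d.1).1 hz
    obtain ⟨a, g, ha, o, p, rfl⟩ := (h.mem_PS d.2.1).1 hx
    have o2 := h.okr _ (inv_mem (h.kn g))
    have q := p'.cj d.2.2.2.2.1 d.2.2.2.2.2 p (h.rP d.2.1 (inv_mem (h.KP o p))) o' o o2
      (h.Kinj (ok_mm o o2) okI.1 (by rw [h.km _ _ o o2, h.Kinv o, h.K1, mul_inv_cancel]))
    have o3 := ok_mm (ok_mm o o') o2
    rw [h.elm o o', _root_.mul_inv_rev, ← h.Kinv o, h.vinv, ← mul_assoc, mul_assoc (v _), ← h.km _ _ (ok_mm o o') o2, mul_assoc, h.Kv o3,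
      ← mul_assoc, ← h.vx, Nat.xor_comm a, Nat.xor_assoc, Nat.xor_comm a]
    exact el_PS ((d.2.2.1.sb' o p hb).xor (d.2.2.2.1.sb o3 q ha)) o3 q
theorem cPS (d : gd m μ ∧ ∀ j < 5, sb (cl11 μ j) (cl11 mU j)) : #(PS v K m μ) =
    ((Finset.range 1024).filter (sb · m)).card * ((Finset.range 1024).filter fun i => inP μ (ug i)).card := by
  rw [← Finset.card_product, ← Set.ncard_coe_finset, ← Set.InjOn.ncard_image (f := fun p : ℕ × ℕ => v p.1 * K (ug p.2))]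
  · refine (Nat.card_coe_set_eq _).trans (congrArg _ (Set.ext fun x => (h.mem_PS d.1).trans ⟨?_, ?_⟩))
    · rintro ⟨a, g, ha, o, p, rfl⟩
      obtain ⟨i, hi, rfl⟩ := ex_ug o (p.mono d.2)
      exact ⟨(a, i), by simp [ha, p, hi, ha.le.trans_lt d.1.1.1], rfl⟩
    · rintro ⟨⟨a, i⟩, k, rfl⟩
      simp only [Finset.coe_product, Finset.coe_filter, Finset.mem_range, Set.mem_prod, Set.mem_ofPred] at k
      exact ⟨a, _, k.1.2, (ugk i k.2.1).1, k.2.2, rfl⟩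
  · rintro ⟨a, i⟩ k ⟨b, j⟩ l e
    simp only [Finset.coe_product, Finset.coe_filter, Finset.mem_range, Set.mem_prod, Set.mem_ofPred] at k l
    obtain ⟨rfl, q⟩ := h.uniq k.1.1 l.1.1 (ugk i k.2.1).1 (ugk j l.2.1).1 e
    rw [← (ugk i k.2.1).2.2, q, (ugk j l.2.1).2.2]
end IK
end H10.RG
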