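import Cfsg.Agent.H10.RG.A4

/-! The standard subgroups of the split extension. -/

set_option autoImplicit false
set_option linter.unusedSectionVars false
set_option linter.unusedVariables false
set_option maxRecDepth 100000
set_option synthInstance.maxSize 4000
open Cfsg Subgroup H19 H0 H15 H10.RF Matrix
open scoped commutatorElement Pointwise
namespace H10.RG
local notation "cj" => H19.cj
variable {G : Type*} [Group G]
abbrev sZ (v K : ℕ → G) := PS v K 63 0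
abbrev sW (v K : ℕ → G) := PS v K 223 0
abbrev sQ (v K : ℕ → G) := PS v K 223 mF
abbrev sR (v K : ℕ → G) := PS v K 1023 mH
abbrev sT (v K : ℕ → G) := PS v K 1023 mU
abbrev sP (v K : ℕ → G) := PS v K 1023 mP
abbrev sY (v K : ℕ → G) := PS v K 1023 mY
abbrev X0 (v K : ℕ → G) := PS v K 63 mH
theorem gdk : (gd 63 0 ∧ gd 223 0 ∧ gd 1023 0 ∧ gd 223 mF) ∧ gd 1023 mH ∧ gd 1023 mU ∧ gd 1023 mP ∧ gd 1023 mY ∧ gd 63 mH := by
  decide +kernel
theorem x1k : ∀ i < 16, force (L2 (ug i)) (fun M => allTo2 (fun a => force (mv M a) fun b => b / 64 == a / 64 &&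
    (b == a) == (i == 0 || a / 64 == 0 || a / 64 == i)) 32 32) = true ∧ (∀ j < 16, mm (ug i) (ug j) = ug (i ^^^ j)) ∧
    inP mH (ug i) ∧ (ug i = I5 ↔ i = 0) := by decide +kernel
theorem x1k' {i a : ℕ} (hi : i < 16) (ha : a < 1024) : Lv (ug i) a / 64 = a / 64 ∧ (Lv (ug i) a = a ↔ i = 0 ∨ a / 64 = 0 ∨ a / 64 = i) := by
  have := (x1k i hi).1
  simp only [force_eq, allTo2_iff, Bool.and_eq_true, beq_iff_eq] at this
  refine ⟨(this a ha).1, ?_⟩
  rw [← beq_iff_eq, Lv, (this a ha).2]; simp [or_assoc]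
theorem Lv_pow {g k : ℕ} (o : ok g = true) (hk : k < 11) : Lv g (2 ^ k) = wd (cl11 g (pp k)) (cl11 g (qq k)) := by
  rw [Lv, mv_eq, lin_pow _ hk, cl_L2 o hk]
theorem ent (m : S5) (i j : Fin 5) : m.1 i j = if (cl11 (cd m) j).testBit i then 1 else 0 := by
  rw [cl_cd m j.2, vcv.2.2, mulVec_single_one]
  exact (congrFun (vcv.1 (m.1.col j)).1 i).symm
theorem inP_cd {μ : ℕ} {m : S5} : inP μ (cd m) ↔ ∀ i j : Fin 5, (cl11 μ j).testBit i = false → m.1 i j = if i = j then 1 else 0 := by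
  have k : ∀ i j : Fin 5, (m.1 i j = if i = j then 1 else 0) ↔ (cl11 (cd m) j ^^^ 2 ^ (j : ℕ)).testBit i = false := fun i j => by
    rw [ent, Nat.testBit_xor, Nat.testBit_two_pow]
    cases (cl11 (cd m) j).testBit i <;> by_cases i = j <;> simp [*, Fin.val_inj, eq_comm (a := j)]
  refine ⟨fun h i j e => (k i j).2 (Bool.eq_false_iff.2 fun t => by simp [sb_iff.1 (h j j.2) i t] at e),
    fun h j hj => sb_iff.2 fun i t => ?_⟩
  have hi : i < 5 := lt_of_not_ge fun q => by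
    rw [Nat.testBit_lt_two_pow ((Nat.xor_lt_two_pow (n := 5) (ok_cl (ok_cd m) hj) (Nat.pow_lt_pow_right one_lt_two hj)).trans_le
      (Nat.pow_le_pow_right two_pos q))] at t
    exact Bool.false_ne_true t
  by_contra n
  simp [(k ⟨i, hi⟩ ⟨j, hj⟩).1 (h _ _ (Bool.eq_false_iff.2 n))] at t
theorem inP_mP {g : ℕ} (o : ok g = true) (h : ∀ j < 4, cl11 g j < 16) : inP mP g := by
  obtain ⟨m, rfl⟩ := ex_cd o
  have k : ∀ j : Fin 5, j ≠ 4 → m.1 4 j = 0 := fun j e => by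
    rw [ent, Nat.testBit_lt_two_pow (h j (by omega))]; rfl
  refine inP_cd.2 fun i j e => ?_
  obtain rfl : i = 4 := by revert i j; decide +kernel
  split_ifs with q
  · exact q ▸ (by decide : ∀ x : ZMod 2, x ≠ 0 → x = 1) _ fun z => one_ne_zero (m.2.symm.trans (det_eq_zero_of_row_eq_zero 4
      fun j => (em (j = 4)).elim (· ▸ z) (k j)))
  · exact k j (Ne.symm q)
abbrev S4 := SpecialLinearGroup (Fin 4) (ZMod 2)
theorem sS {n : ℕ} (h : 3 ≤ n) : IsSimpleGroup (SpecialLinearGroup (Fin n) (ZMod 2)) :=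
  have := H11.psl_simple (ι := Fin n) (F := ZMod 2) (by simpa)
  have : Nonempty (Fin n) := ⟨⟨0, by omega⟩⟩
  ((QuotientGroup.quotientMulEquivOfEq (card_eq_one.1 (H11.card_center_sl.trans (by simp)))).trans
    QuotientGroup.quotientBot).symm.isSimpleGroup
theorem cS4 : Nat.card S4 = 20160 := by
  have h2 := H11.card_units_mul_card_sl (ι := Fin 4) (F := ZMod 2)
  rw [H11.card_gl] at h2
  rw [show (∏ x : Fin (Fintype.card (Fin 4)), _) = 20160 by decide +kernel] at h2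
  simpa only [ZMod.card, Nat.add_one_sub_one, one_mul] using h2
theorem sim_of {Γ : Type*} [Group Γ] [IsSimpleGroup Γ] {M O D : Subgroup G} {f : M →* Γ} (hf : Function.Surjective f)
    (k : ∀ x, f x = 1 → (x : G) ∈ O) (l : O ≤ D) (l' : ∀ x : M, (x : G) ∈ O → f x = 1) (n : D ⊴ M) : D = O ∨ D = M := by
  rcases IsSimpleGroup.eq_bot_or_eq_top_of_normal _ (n.subgroupOf.map f hf) with e | e
  · exact .inl (le_antisymm (fun x hx => k ⟨x, n.1 hx⟩ (mem_bot.1 (e ▸ mem_map_of_mem f hx))) l)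
  · refine .inr (le_antisymm n.1 fun x hx => ?_)
    obtain ⟨y, hy, q⟩ := (e ▸ mem_top (f ⟨x, hx⟩) : f ⟨x, hx⟩ ∈ (D.subgroupOf M).map f)
    simpa using mul_mem (show (y : G) ∈ D from hy) (l (k (y⁻¹ * ⟨x, hx⟩) (by rw [map_mul, map_inv, q, inv_mul_cancel])))
theorem card_of [Finite G] {Γ : Type*} [Group Γ] {M O : Subgroup G} {f : M →* Γ} (hf : Function.Surjective f)
    (k : ∀ x, f x = 1 ↔ (x : G) ∈ O) (l : O ≤ M) : #M = Nat.card Γ * #O := by
  rw [← card_subgroupOf' l, show O.subgroupOf M = f.ker from ext fun g => (k g).symm, ← card_top (G := Γ),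
    ← MonoidHom.range_eq_top.2 hf, ← index_ker, index_mul_card]
variable [Finite G] {A B X : Subgroup G} {ρ : G → ℕ} {v K : ℕ → G} {x y : G} {a b g i j : ℕ}
local notation "ZZ" => sZ v K
local notation "WW" => sW v K
local notation "QQ" => sQ v K
local notation "RR" => sR v K
local notation "TT" => sT v K
local notation "PP" => sP v K
local notation "YY" => sY v K
namespace IK
variable (h : IK A ρ v K)
include h
theorem cZ : #ZZ = 64 := (h.cPS (by decide +kernel)).trans (by decide +kernel)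
theorem cW : #WW = 128 := (h.cPS (by decide +kernel)).trans (by decide +kernel)
theorem cQ : #QQ = 8192 := (h.cPS (by decide +kernel)).trans (by decide +kernel)
theorem cR : #RR = 16384 := (h.cPS (by decide +kernel)).trans (by decide +kernel)
theorem cT : #TT = 2 ^ 20 := (h.cPS (by decide +kernel)).trans (by decide +kernel)
theorem cX0 : #(X0 v K) = 1024 := (h.cPS (by decide +kernel)).trans (by decide +kernel)
theorem pT : PG 2 TT := PiN.of_card_pow Nat.prime_two h.cT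
theorem pA : PG 2 A := PiN.of_card_pow (k := 10) Nat.prime_two h.cA
theorem sylT : Syl 2 TT N(A) := syl_mk h.PN h.pT (by
  have := card_mul_relIndex (h.PN (m := 1023) (μ := mU))
  rw [h.cT, h.card] at this
  rw [show relIndex TT N(A) = 9765 from Nat.eq_of_mul_eq_mul_left (Nat.two_pow_pos 20) this]; decide)
theorem Ae : PS v K 1023 0 = A := le_antisymm h.PA h.AP
theorem RT : RR ≤ TT := PS_le (by decide) (by decide +kernel)
theorem QT : QQ ≤ TT := PS_le (by decide) (by decide +kernel)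
theorem TP : TT ≤ PP := PS_le (by decide) (by decide +kernel)
theorem TY : TT ≤ YY := PS_le (by decide) (by decide +kernel)
theorem WQ : WW ≤ QQ := PS_le (by decide) (by decide +kernel)
theorem ZX0 : ZZ ≤ X0 v K := PS_le (by decide) (by decide +kernel)
theorem X0R : X0 v K ≤ RR := PS_le (by decide) (by decide +kernel)
theorem PR : PP ≤ N(RR) := h.nrm (by decide +kernel)
theorem PZ : PP ≤ N(ZZ) := h.nrm (by decide +kernel)
theorem PX0 : PP ≤ N(X0 v K) := h.nrm (by decide +kernel)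
theorem YQ : YY ≤ N(QQ) := h.nrm (by decide +kernel)
theorem YW : YY ≤ N(WW) := h.nrm (by decide +kernel)
theorem QA : QQ ⊓ A = WW := h.PiA gdk.1.2.2.2
theorem X0A : X0 v K ⊓ A = ZZ := h.PiA gdk.2.2.2.2.2
theorem exT (hx : x ∈ TT) : ∃ a < 1024, ∃ i < 1024, x = v a * K (ug i) := by
  obtain ⟨a, g, ha, o, p, rfl⟩ := (h.mem_PS gdk.2.2.1).1 hx
  obtain ⟨i, hi, rfl⟩ := ex_ug o p
  exact ⟨a, (sb_lt 10).1 ha, i, hi, rfl⟩
theorem mT (ha : a < 1024) (hi : i < 1024) : v a * K (ug i) ∈ TT := el_PS ((sb_lt 10).2 ha) (ugk i hi).1 (ugk i hi).2.1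
theorem exR (hx : x ∈ RR) : ∃ a < 1024, ∃ i < 16, x = v a * K (ug i) := by
  obtain ⟨a, ha, i, hi, rfl⟩ := h.exT (h.RT hx)
  exact ⟨a, ha, i, (by decide +kernel : ∀ i < 1024, inP mH (ug i) → i < 16) i hi ((h.el_mem gdk.2.1 ha (ugk i hi).1).1 hx).2, rfl⟩
theorem mR (ha : a < 1024) (hi : i < 16) : v a * K (ug i) ∈ RR := el_PS ((sb_lt 10).2 ha) (ugk i (by omega)).1 (x1k i hi).2.2.1
theorem mulR (hi : i < 16) (hj : j < 16) (a b : ℕ) : v a * K (ug i) * (v b * K (ug j)) = v (a ^^^ Lv (ug i) b) * K (ug (i ^^^ j)) := by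
  rw [h.elm (ugk i (by omega)).1 (ugk j (by omega)).1, (x1k i hi).2.1 j hj]
theorem sqR (ha : a < 1024) (hi : i < 16) : v a * K (ug i) * (v a * K (ug i)) = 1 ↔ i = 0 ∨ a / 64 = 0 ∨ a / 64 = i := by
  rw [h.mulR hi hi, Nat.xor_self, show ug 0 = I5 from rfl, h.K1, mul_one, h.v1 (x10 ha (Lv_lt _ _)), Nat.xor_eq_zero_iff, eq_comm,
    (x1k' hi ha).2]
theorem mA (ha : a < 1024) (hi : i < 16) : v a * K (ug i) ∈ A ↔ i = 0 := by
  rw [← h.rA (h.elN _ _), h.rel (ugk i (by omega)).1, (x1k i hi).2.2.2]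
theorem mX0 (ha : a < 1024) (hi : i < 16) : v a * K (ug i) ∈ X0 v K ↔ a / 64 = 0 := by
  rw [h.el_mem gdk.2.2.2.2.2 ha (ugk i (by omega)).1, and_iff_left (x1k i hi).2.2.1, Nat.div_eq_zero_iff_lt (by decide)]
  exact sb_lt 6
theorem mem_X1 : x ∈ X1 v K ↔ ∃ a < 1024, x = v a * K (ug (a / 64)) :=
  ⟨fin_ind (P := fun x => ∃ a < 1024, x = v a * K (ug (a / 64))) ⟨0, by decide, by rw [h.v0, one_mul]; exact h.K1.symm⟩
    (by rintro _ _ ⟨b, hb, rfl⟩ ⟨a, ha, rfl⟩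
        refine ⟨_, x10 ha (Lv_lt (ug (a / 64)) b), (h.mulR (by omega) (by omega) a b).trans ?_⟩
        rw [show (a ^^^ _) / 64 = _ from Nat.xor_div_two_pow (n := 6), show _ / 2 ^ 6 = _ from (x1k' (by omega) hb).1]) x,
    fun e => subset_closure e⟩
theorem mX1 (ha : a < 1024) (hi : i < 16) : v a * K (ug i) ∈ X1 v K ↔ a / 64 = i :=
  ⟨fun k => by
    obtain ⟨b, hb, e⟩ := h.mem_X1.1 k
    obtain ⟨rfl, q⟩ := h.uniq ha hb (ugk i (by omega)).1 (ugk _ (by omega)).1 e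
    rw [← (ugk i (by omega)).2.2, q, (ugk _ (by omega)).2.2], fun e => h.mem_X1.2 ⟨a, ha, e ▸ rfl⟩⟩
theorem X1R : X1 v K ≤ RR := fun x hx => let ⟨a, ha, e⟩ := h.mem_X1.1 hx; e ▸ h.mR ha (by omega)
theorem cX1 : #(X1 v K) = 1024 := by
  rw [← h.cA]
  refine Nat.card_congr (Equiv.ofBijective (fun x : X1 v K => (⟨x * (K (ρ x))⁻¹, ?_⟩ : A)) ⟨fun x y e => ?_, fun x => ?_⟩)
  · obtain ⟨a, ha, e⟩ := h.mem_X1.1 x.2
    rw [e, h.rel (ugk _ (by omega)).1, mul_inv_cancel_right]; exact h.vm a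
  · obtain ⟨a, ha, q⟩ := h.mem_X1.1 x.2
    obtain ⟨b, hb, r⟩ := h.mem_X1.1 y.2
    have := Subtype.ext_iff.1 e
    simp only [q, r, h.rel (ugk _ (show a / 64 < 1024 by omega)).1, h.rel (ugk _ (show b / 64 < 1024 by omega)).1, mul_inv_cancel_right] at this
    exact Subtype.ext (by rw [q, r, h.vi a ha b hb this])
  · obtain ⟨a, ha, e⟩ := h.vs x x.2
    exact ⟨⟨_, h.mem_X1.2 ⟨a, ha, rfl⟩⟩, Subtype.ext (by simp only [h.rel (ugk _ (show a / 64 < 1024 by omega)).1, mul_inv_cancel_right]; exact e)⟩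
theorem invR (hx : x ∈ RR) : x * x = 1 ↔ x ∈ A ∨ x ∈ X0 v K ∨ x ∈ X1 v K := by
  obtain ⟨a, ha, i, hi, rfl⟩ := h.exR hx
  rw [h.sqR ha hi, h.mA ha hi, h.mX0 ha hi, h.mX1 ha hi]
theorem sq0 : ∀ x ∈ X0 v K, x * x = 1 := fun _ hx => (h.invR (h.X0R hx)).2 (.inr (.inl hx))
theorem sq1 : ∀ x ∈ X1 v K, x * x = 1 := fun _ hx => (h.invR (h.X1R hx)).2 (.inr (.inr hx))
theorem inZ (hx : x ∈ RR) : (x ∈ ZZ ↔ x ∈ A ∧ x ∈ X1 v K) ∧ (x ∈ ZZ ↔ x ∈ X0 v K ∧ x ∈ X1 v K) := by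
  obtain ⟨a, ha, i, hi, rfl⟩ := h.exR hx
  rw [← h.X0A, mem_inf, h.mA ha hi, h.mX0 ha hi, h.mX1 ha hi]; omega
theorem ZR : ZZ ≤ RR := h.ZX0.trans h.X0R
theorem ZX1 : ZZ ≤ X1 v K := fun x hx => ((h.inZ (h.ZR hx)).1.1 hx).2
theorem AX0 : A ⊔ X0 v K = RR := le_antisymm (sup_le h.AP h.X0R) fun x hx => by
  obtain ⟨a, ha, i, hi, rfl⟩ := h.exR hx
  exact mul_mem (mem_sup_left (h.vm a)) (mem_sup_right (h.KP (ugk i (by omega)).1 (x1k i hi).2.2.1))
theorem nX1 (e : cj x A = A ∧ cj x (X0 v K) = X0 v K ∨ cj x A = X0 v K ∧ cj x (X0 v K) = A) : x ∈ N(X1 v K) := by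
  have k : cj x RR = RR ∧ cj x ZZ = ZZ := by
    rw [← h.AX0, ← h.X0A, cj_sup, cj_inf]
    rcases e with e | e <;> rw [e.1, e.2]
    exacts [⟨rfl, rfl⟩, ⟨sup_comm _ _, inf_comm _ _⟩]
  refine mem_norm_of_cj_le fun y hy => ?_
  obtain ⟨z, hz, rfl⟩ := mem_cj'.1 hy
  have r := h.X1R hz
  have z1 : z ∈ A ∨ z ∈ X0 v K → x * z * x⁻¹ ∈ X1 v K := fun q => h.ZX1 (k.2 ▸ conj_mem_cj.2
    (q.elim (fun q => (h.inZ r).1.2 ⟨q, hz⟩) fun q => (h.inZ r).2.2 ⟨q, hz⟩))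
  rcases (h.invR (k.1 ▸ conj_mem_cj.2 r)).1 (by rw [← cjmul, h.sq1 z hz, mul_one, mul_inv_cancel]) with q | q | q
  · exact z1 (e.imp (fun e => conj_mem_cj.1 (e.1.symm ▸ q)) fun e => conj_mem_cj.1 (e.2.symm ▸ q))
  · exact z1 (e.imp (fun e => conj_mem_cj.1 (e.2.symm ▸ q)) fun e => conj_mem_cj.1 (e.1.symm ▸ q)).symm
  · exact q
theorem PX1 : PP ≤ N(X1 v K) := fun x hx => h.nX1 (.inl ⟨cj_of_mem_norm (h.PN hx), cj_of_mem_norm (h.PX0 hx)⟩)
theorem cent {m μ : ℕ} (d : gd 1023 μ ∧ gd m 0 ∧ lm μ m 0) : PS v K 1023 μ ≤ C(PS v K m 0) := fun x hx => mem_cent.2 fun y hy => by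
  obtain ⟨a, ha, rfl⟩ := h.memV d.2.1 hy (h.PA hy)
  have := (d.2.2.sb (h.okr x (h.PN hx)) (h.rP d.1 hx) ha).le
  exact (mem_cent1.1 ((h.fixi (h.PN hx) (ha.le.trans_lt d.2.2.1)).2 (Nat.xor_eq_zero_iff.1 (Nat.le_zero.1 this)))).symm
theorem fixK (o : ok g = true) (ha : a < 1024) : K g ∈ C[v a] ↔ Lv g a = a := by rw [h.fixi (h.kn g) ha, h.kr g o]
theorem Lv0 (hx : x ∈ N(A)) (ha : a < 1024) (e : Lv (ρ x) a = 0) : a = 0 :=
  (h.v1 ha).1 (conj_eq_one_iff.1 ((h.cjv hx a).trans (e ▸ h.v0)))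
theorem Ye : N(A) ⊓ C[v 1] = YY := le_antisymm (fun x hx => h.memP hx.1 fun j hj => by
    have o := h.okr x hx.1
    have := (by decide +kernel : ∀ u < 32, ∀ w < 32, wd u w = 1 → ∀ t < 32, ∀ j < 5, (j = 0 → t = u) → (j = 1 → t = w) →
      sb (t ^^^ 2 ^ j) (cl11 mY j)) _ (ok_cl o (by decide)) _ (ok_cl o (by decide)) ((Lv_pow o (k := 0) (by decide)).symm.trans
        ((h.fixi hx.1 (by decide)).1 hx.2))
    exact this _ (ok_cl o hj) j hj (by rintro rfl; rfl) (by rintro rfl; rfl))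
  (le_inf h.PN fun x hx => (h.fixi (h.PN hx) (by decide)).2 (by
    have := (lm.sb' (m := 1) (by decide +kernel) (h.okr x (h.PN hx)) (h.rP gdk.2.2.2.2.1 hx) (sb_rfl 1)).le
    have := mt (h.Lv0 (h.PN hx) (a := 1) (by decide)) (by decide)
    omega))
theorem TC : TT ≤ C[v 1] := h.TY.trans (h.Ye.ge.trans inf_le_right)
theorem s1 : v 1 ≠ 1 := mt (h.v1 (by decide)).1 (by decide)
theorem col {m : ℕ} (hx : x ∈ N(A)) (c : x ∈ C(PS v K m 0)) {k : ℕ} (hk : k < 10) (t : sb (2 ^ k) m) :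
    wd (cl11 (ρ x) (pp k)) (cl11 (ρ x) (qq k)) = 2 ^ k := (Lv_pow (h.okr x hx) (by omega)).symm.trans
  ((h.fixi hx (Nat.pow_lt_pow_right (n := 10) one_lt_two hk)).1 (cent_le_cent1 (h.vP t) c))
theorem c27 (hx : x ∈ N(A)) (c : x ∈ C(PS v K 31 0)) : x ∈ RR := h.memP hx <| by
  have o := h.okr x hx
  have q := fun j (hj : j < 5) => ok_cl o hj
  have r := fun k (hk : k < 5) => h.col hx c (k := k) (by omega) ((sb_lt 5).2 (Nat.pow_lt_pow_right one_lt_two hk))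
  have k := (by decide +kernel : ∀ a < 32, ∀ b < 32, wd a b = 2 ^ 0 → ∀ c < 32, wd a c = 2 ^ 1 → wd b c = 2 ^ 2 → ∀ d < 32, wd a d = 2 ^ 3 →
    wd b d = 2 ^ 4 → ∀ e < 32, force (a + 2048 * (b + 2048 * (c + 2048 * (d + 2048 * e)))) (fun g => bimp (ok g) (decide (inP mH g))) = true)
    _ (q 0 (by decide)) _ (q 1 (by decide)) (r 0 (by decide)) _ (q 2 (by decide)) (r 1 (by decide)) (r 2 (by decide)) _ (q 3 (by decide))
    (r 3 (by decide)) (r 4 (by decide)) _ (q 4 (by decide))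
  rw [← ok_pk o, force_eq, bimp_iff] at k
  exact of_decide_eq_true (k o)
theorem CZ : N(A) ⊓ C(ZZ) = RR := le_antisymm (fun x hx => h.c27 hx.1 (cent_mono (PS_le (by decide) (by decide +kernel)) hx.2))
  (le_inf h.PN (h.cent (by decide +kernel)))
theorem CW : N(A) ⊓ C(WW) ≤ A := fun x hx => by
  obtain ⟨a, ha, i, hi, rfl⟩ := h.exR (h.c27 hx.1 (cent_mono (PS_le (by decide) (by decide +kernel)) hx.2))
  have k := fun b hb (t : sb b 223) => (x1k' hi hb).2.1 (by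
    simpa only [h.rel (ugk i (hi.trans (by decide))).1 a] using (h.fixi hx.1 hb).1 (cent_le_cent1 (h.vP t) hx.2))
  have := k 64 (by decide) (by decide)
  have := k 128 (by decide) (by decide)
  exact (h.mA ha hi).2 (by omega)
theorem CA : C(A) ≤ A := fun x hx => h.CW ⟨cent_le_norm _ hx, cent_mono h.PA hx⟩
theorem NZ : N(A) ⊓ N(ZZ) = PP := le_antisymm (fun x hx => h.memP hx.1 (inP_mP (h.okr x hx.1) fun j hj => by
    have o := h.okr x hx.1
    have k : ∀ k < 6, cl11 (ρ x) (pp k) < 16 ∧ cl11 (ρ x) (qq k) < 16 := fun k hk => by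
      have p : 2 ^ k < 2 ^ 6 := Nat.pow_lt_pow_right one_lt_two hk
      have e := conj_mem_of_norm hx.2 (h.vP ((sb_lt 6).2 p))
      have n := mt (h.Lv0 hx.1 (a := 2 ^ k) (by omega)) (by positivity)
      rw [h.cjv hx.1, h.v_mem gdk.1.1 (Lv_lt _ _), Lv_pow o (by omega)] at e
      rw [Lv_pow o (by omega)] at n
      exact (by decide +kernel : ∀ u < 32, ∀ w < 32, sb (wd u w) 63 → wd u w ≠ 0 → u < 16 ∧ w < 16) _ (ok_cl o (wdk.2.1 k (by omega)).1) _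
        (ok_cl o (wdk.2.1 k (by omega)).2) e n
    interval_cases j
    exacts [(k 0 (by decide)).1, (k 0 (by decide)).2, (k 5 (by decide)).1, (k 5 (by decide)).2])) (le_inf h.PN h.PZ)
theorem Ze : RR ⊓ C(RR) = ZZ := le_antisymm (fun x hx => by
    obtain ⟨a, ha, i, hi, rfl⟩ := h.exR hx.1
    obtain rfl := (h.mA ha hi).1 (h.CA (cent_mono h.AP hx.2))
    have k := fun j (hj : j < 16) => (x1k' hj ha).2.1 ((h.fixK (ugk j (by omega)).1 ha).1 (by
      simpa [show ug 0 = I5 from rfl, h.K1] using le_cent1_iff.2 hx.2 (h.KP (ugk j (by omega)).1 (x1k j hj).2.2.1)))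
    have := k 1 (by decide)
    have := k 2 (by decide)
    exact h.X0A ▸ ⟨(h.mX0 ha hi).2 (by omega), (h.mA ha hi).2 rfl⟩)
  (le_inf h.ZR (cents_symm (h.CZ.ge.trans inf_le_right)))
theorem NR : N(A) ⊓ N(RR) = PP := le_antisymm (h.NZ ▸ inf_le_inf_left _ (h.Ze ▸ norms_inf le_rfl (norm_le_norm_cent _))) (le_inf h.PN h.PR)
theorem ZT : TT ⊓ C(TT) ≤ zpowers (v 1) := fun x hx => by
  obtain ⟨a, ha, rfl⟩ := h.vs x (h.CA (cent_mono h.AP hx.2))
  have k := fun j hj => (h.fixK (ugk j hj).1 ha).1 (le_cent1_iff.2 hx.2 (h.KP (ugk j hj).1 (ugk j hj).2.1))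
  rcases (by decide +kernel : ∀ a < 1024, Lv (ug 8) a = a → Lv (ug 64) a = a → Lv (ug 256) a = a → Lv (ug 512) a = a → a = 0 ∨ a = 1) a ha
    (k 8 (by decide)) (k 64 (by decide)) (k 256 (by decide)) (k 512 (by decide)) with rfl | rfl
  exacts [h.v0 ▸ one_mem _, mem_zpowers _]
theorem exθ' : ∃ θ : N(A) →* S5, (∀ x, cd (θ x) = ρ x) ∧ Function.Surjective θ ∧ ∀ x, θ x = 1 ↔ (x : G) ∈ A :=
  let ⟨θ, e⟩ := h.exθ
  ⟨θ, e, fun m => ⟨⟨K (cd m), h.kn _⟩, cd_inj (by rw [e, h.kr _ (ok_cd m)])⟩, fun x => by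
    rw [← h.rA x.2, ← e, ← cd_one]; exact ⟨congrArg cd, cd_inj⟩⟩
theorem sim (l : A ≤ B) (n : B ⊴ N(A)) : B = A ∨ B = N(A) :=
  let ⟨_, _, s, k⟩ := h.exθ'
  have := sS (n := 5) (by decide)
  sim_of s (fun x => (k x).1) l (fun x => (k x).2) n
theorem exπ : ∃ π : PP →* S4, Function.Surjective π ∧ ∀ x, π x = 1 ↔ (x : G) ∈ RR := by
  obtain ⟨θ, e, -, -⟩ := h.exθ'
  have r : ∀ x : PP, (∀ j : Fin 4, (θ ⟨x, h.PN x.2⟩).1 (Fin.last 4) j.castSucc = 0) ∧ (θ ⟨x, h.PN x.2⟩).1 (Fin.last 4) (Fin.last 4) = 1 :=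
    fun x => have p := inP_cd.1 ((e ⟨x, h.PN x.2⟩).symm ▸ h.rP gdk.2.2.2.1 x.2)
      ⟨fun j => (p _ _ (by revert j; decide +kernel)).trans (if_neg (Fin.castSucc_lt_last j).ne'), p _ _ (by decide +kernel)⟩
  have d : ∀ m : Matrix (Fin 5) (Fin 5) (ZMod 2), (∀ j : Fin 4, m (Fin.last 4) j.castSucc = 0) → m (Fin.last 4) (Fin.last 4) = 1 →
      (m.submatrix Fin.castSucc Fin.castSucc).det = m.det := fun m h1 h2 => by
    rw [det_succ_row m (Fin.last 4), Fin.sum_univ_castSucc]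
    simp only [h1, h2, mul_zero, zero_mul, Finset.sum_const_zero, zero_add, Fin.succAbove_last, CharTwo.neg_eq, one_pow, one_mul]
  refine ⟨MonoidHom.mk' (fun x => ⟨(θ ⟨x, h.PN x.2⟩).1.submatrix Fin.castSucc Fin.castSucc,
    (d _ (r x).1 (r x).2).trans (θ _).2⟩) fun x y => Subtype.ext ?_, fun B => ?_, fun x => ?_⟩
  · ext i j
    refine (congrArg (fun t : S5 => t.1 i.castSucc j.castSucc) (map_mul θ ⟨x, h.PN x.2⟩ ⟨y, h.PN y.2⟩)).trans ?_
    refine (mul_apply (M := (θ ⟨x, h.PN x.2⟩).1) (N := (θ ⟨y, h.PN y.2⟩).1)).trans ?_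
    rw [Fin.sum_univ_castSucc (n := 4), (r y).1, mul_zero, add_zero]
    rfl
  · let m : Matrix (Fin 5) (Fin 5) (ZMod 2) := of fun i j => Fin.lastCases (Fin.lastCases 1 (fun _ => 0) j) (fun i => Fin.lastCases 0 (B.1 i) j) i
    have s : m.submatrix Fin.castSucc Fin.castSucc = B.1 := by ext i j; simp [m]
    let M : S5 := ⟨m, by rw [← d m (fun j => by simp only [m, of_apply, Fin.lastCases_last, Fin.lastCases_castSucc])
      (by simp only [m, of_apply, Fin.lastCases_last]), s, B.2]⟩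
    refine ⟨⟨K (cd M), h.KP (ok_cd M) (inP_mP (ok_cd M) fun j hj => ?_)⟩, Subtype.ext ?_⟩
    · have := ent M (Fin.last 4) (Fin.castSucc ⟨j, hj⟩)
      refine (by decide : ∀ c < 32, c.testBit 4 = false → c < 16) _ (ok_cl (ok_cd M) (by omega)) (Bool.eq_false_iff.2 fun t => ?_)
      simp only [M, m, of_apply, Fin.lastCases_last, Fin.lastCases_castSucc] at this
      exact zero_ne_one (this.trans (if_pos t))
    · exact (congrArg (fun t : S5 => t.1.submatrix Fin.castSucc Fin.castSucc) (cd_inj ((e _).trans (h.kr _ (ok_cd M))))).trans s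
  · refine (Subtype.ext_iff.trans Matrix.ext_iff.symm).trans ⟨fun q => h.memP (h.PN x.2) ((e ⟨x, h.PN x.2⟩) ▸ inP_cd.2 fun i j t => ?_), fun q i j => ?_⟩
    · induction i using Fin.lastCases <;> induction j using Fin.lastCases
      · exact (r x).2
      · exact ((r x).1 _).trans (if_neg (Fin.castSucc_lt_last _).ne').symm
      · rename_i i; exact absurd t (by revert i; decide +kernel)
      · exact (q _ _).trans (by simp [one_apply])
    · exact (inP_cd.1 ((e ⟨x, h.PN x.2⟩).symm ▸ h.rP gdk.2.1 q) _ _ (by revert i j; decide +kernel)).trans (by simp [one_apply])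
theorem cP : #PP = 20160 * 16384 := by
  obtain ⟨π, s, k⟩ := h.exπ
  rw [card_of s k (h.RT.trans h.TP), cS4, h.cR]
theorem simP (l : RR ≤ B) (n : B ⊴ PP) : B = RR ∨ B = PP :=
  let ⟨_, s, k⟩ := h.exπ
  have := sS (n := 4) (by decide)
  sim_of s (fun x => (k x).1) l (fun x => (k x).2) n
end IK
end H10.RG
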