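import Cfsg.Agent.H10.RG.I1

/-! Changes of coordinates. -/

set_option autoImplicit false
set_option linter.unusedSectionVars false
set_option linter.unusedVariables false
set_option maxRecDepth 100000
set_option synthInstance.maxSize 4000
open Cfsg Subgroup H19 H0 H15 H10.RF Matrix
open scoped commutatorElement Pointwise
namespace H10.RG
local notation "cj" => H19.cj
open H16 (nth nth_mem)
variable {G : Type*} [Group G]
/-- conjugate coordinates -/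
def cf (n : G) (f : ℕ → G) (a : ℕ) : G := n * f a * n⁻¹
theorem cj_PS (n : G) (v K : ℕ → G) (m μ : ℕ) : PS (cf n v) (cf n K) m μ = cj n (PS v K m μ) := by
  rw [PS, PS, cj_closure]
  refine congrArg _ (Set.ext fun x => ⟨?_, ?_⟩)
  · rintro ⟨a, g, ha, o, p, rfl⟩
    exact ⟨_, ⟨a, g, ha, o, p, rfl⟩, cjmul _ _ _⟩
  · rintro ⟨_, ⟨a, g, ha, o, p, rfl⟩, rfl⟩
    exact ⟨a, g, ha, o, p, cjmul _ _ _⟩
theorem cj_X1 (n : G) (v K : ℕ → G) : X1 (cf n v) (cf n K) = cj n (X1 v K) := by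
  rw [X1, X1, cj_closure]
  refine congrArg _ (Set.ext fun x => ⟨?_, ?_⟩)
  · rintro ⟨a, ha, rfl⟩
    exact ⟨_, ⟨a, ha, rfl⟩, cjmul _ _ _⟩
  · rintro ⟨_, ⟨a, ha, rfl⟩, rfl⟩
    exact ⟨a, ha, cjmul _ _ _⟩
theorem IK.cjg {A : Subgroup G} {ρ : G → ℕ} {v K : ℕ → G} (h : IK A ρ v K) (n : G) :
    IK (cj n A) (fun x => ρ (n⁻¹ * x * n)) (cf n v) (cf n K) := by
  have m : ∀ {x}, x ∈ N(cj n A) → n⁻¹ * x * n ∈ N(A) := fun k => mem_cj.1 (cj_norm n A ▸ k)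
  have m' : ∀ {x}, x ∈ N(A) → n * x * n⁻¹ ∈ N(cj n A) := fun k => cj_norm n A ▸ conj_mem_cj.2 k
  have c : ∀ x : G, n⁻¹ * (n * x * n⁻¹) * n = x := fun x => by group
  refine ⟨⟨fun a ha => ?_, (card_cj _ _).trans h.cA, fun a b => by rw [cf, h.vx, cjmul]; rfl, fun i => conj_mem_cj.2 (h.vm i),
    fun x hx => (h.vs _ (mem_cj.1 hx)).imp fun i e => ⟨e.1, by rw [cf, e.2]; group⟩,
    fun i hi j hj e => h.vi i hi j hj (by simpa [cf] using e), fun a ha b hb => ?_, fun a ha b hb => ?_, by simpa using h.one,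
    fun a ha => h.okr _ (m ha), fun g o => ⟨_, m' (h.kn g), by rw [c, h.kr g o]⟩, fun x hx i => ?_, by rw [← cj_norm, card_cj, h.card]⟩,
    fun g => m' (h.kn g), fun g o => by rw [cf, c, h.kr g o], fun f g o p => by rw [cf, h.km f g o p, cjmul]; rfl⟩
  · obtain ⟨b, hb, rfl⟩ := mem_cj'.1 ha
    rw [← cjmul, h.sq b hb, mul_one, mul_inv_cancel]
  · rw [← h.mul _ (m ha) _ (m hb)]; congr 1; group
  · rw [h.eqv _ (m ha) _ (m hb), mem_cj]; congr! 1; group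
  · rw [cf, cf, ← h.ac _ (m hx) i]; group
theorem mm_cancel {f g g' : ℕ} (o : ok f = true) (p : ok g = true) (q : ok g' = true) (e : mm f g = mm f g') : g = g' := by
  obtain ⟨x, rfl⟩ := ex_cd o
  obtain ⟨y, rfl⟩ := ex_cd p
  obtain ⟨z, rfl⟩ := ex_cd q
  rw [← cd_mul, ← cd_mul] at e
  rw [mul_left_cancel (cd_inj e)]
/-- an injective additive map is given by a matrix -/
theorem exB {F : ℕ → ℕ} (x : ∀ a b, F (a ^^^ b) = F a ^^^ F b) (l : ∀ j < 5, F (2 ^ j) < 32) (i : ∀ u < 32, F u = 0 → u = 0) :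
    ∃ B, ok B = true ∧ ∀ u < 32, a5 B u = F u := by
  have c : ∀ j < 5, cl11 (pk (fun j => Nat.land (F (2 ^ j)) 31) 5 0) j = F (2 ^ j) := fun j hj => by
    rw [cl11_pk (fun j => (l31 _).trans (by decide)) _ _ hj, zero_add, Nat.land_eq, show 31 = 2 ^ 5 - 1 from rfl,
      Nat.and_two_pow_sub_one_of_lt_two_pow (l j hj)]
  have e : ∀ u < 32, a5 (pk (fun j => Nat.land (F (2 ^ j)) 31) 5 0) u = F u := fun u hu => by
    rw [a5_eq, lin_congr _ _ _ _ c, ← map_lin F (by simpa using x 0 0) x, lin_two_pow, Nat.mod_eq_of_lt (show u < 2 ^ 5 from hu)]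
  refine ⟨_, ?_, e⟩
  simp only [ok, band_iff, allTo_iff, bor_iff, Nat.beq_eq, Nat.blt_eq]
  exact ⟨pk_congr fun j hj => by rw [c j (by omega)], fun u hu => (Nat.eq_zero_or_pos _).imp_left fun q => i u hu (e u hu ▸ q)⟩
/-- the product of a word -/
noncomputable def ew (t l : List ℕ) : ℕ := List.rec I5 (fun k _ ih => force ih fun g => mm (nth I5 t k) g) l
noncomputable def rl (t : List ℕ) (R : List (List ℕ × List ℕ)) : Bool := R.all fun r => Nat.beq (ew t r.1) (ew t r.2)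
theorem rl_map {φ : ℕ → ℕ} {p : ℕ → Prop} (e : φ I5 = I5) (p1 : p I5) (m : ∀ f g, p f → p g → p (mm f g) ∧ φ (mm f g) = mm (φ f) (φ g))
    {t : List ℕ} {R : List (List ℕ × List ℕ)} (o : (∀ g ∈ t, p g) ∧ rl t R = true) : rl (t.map φ) R = true := by
  have n : ∀ k, nth I5 (t.map φ) k = φ (nth I5 t k) := fun k => by
    rw [H16.nth_eq_getD, H16.nth_eq_getD, ← List.getD_map _ _ φ, e]
  have k : ∀ l, p (ew t l) ∧ ew (t.map φ) l = φ (ew t l) := fun l => by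
    induction l with
    | nil => exact ⟨p1, e.symm⟩
    | cons k l ih =>
      have q := m _ _ ((nth_mem I5 t k).elim (fun q => by rw [q]; exact p1) (o.1 _)) ih.1
      simp only [ew, force_eq] at ih q ⊢
      exact ⟨q.1, by rw [ih.2, n, q.2]⟩
  simp only [rl, List.all_eq_true, Nat.beq_eq] at o ⊢
  exact fun r hr => by rw [(k _).2, (k _).2, o.2 r hr]
def tw (g c : ℕ) : ℕ := Nat.add g (Nat.mul c 17592186044416)
def g6 : List ℕ := [ee 0 1, ee 1 0, ee 1 2, ee 2 1, ee 2 3, ee 3 2]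
def cR : List (List (List ℕ × List ℕ)) := [[([0, 0], []), ([0, 1, 0], [1, 0, 1])], [([0, 2], [2, 0]), ([1, 2], [2, 1]), ([2, 2], [])],
  [([0, 3], [3, 0]), ([1, 3], [3, 1]), ([2, 3, 2], [3, 2, 3])],
  [([1, 4], [4, 1]), ([3, 4], [4, 3]), ([0, 4, 0], [4, 0, 1, 0, 4, 0, 1, 0]), ([2, 4, 2], [4, 2, 3, 2, 4, 2, 3, 2])],
  [([0, 5], [5, 0]), ([2, 5], [5, 2]), ([4, 5, 4], [5, 4, 5]), ([1, 5, 1], [5, 0, 1, 0, 5, 0, 1, 0])]]
noncomputable def cb (l : List ℕ) : Bool := decide (∃ u : ℕ, u < 16 ∧ List.map (fun g => mm (mm (ug u) g) (ug u)) l = g6)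
theorem coc : allTo (fun a => allTo (fun b => bimp (rl [tw (ee 0 1) a, tw (ee 1 0) b] (nth [] cR 0)) <|
    allTo (fun e => bimp (rl [tw (ee 0 1) a, tw (ee 1 0) b, tw (ee 2 3) e] (nth [] cR 1)) <|
    allTo (fun f => bimp (rl [tw (ee 0 1) a, tw (ee 1 0) b, tw (ee 2 3) e, tw (ee 3 2) f] (nth [] cR 2)) <|
    allTo (fun c => bimp (rl [tw (ee 0 1) a, tw (ee 1 0) b, tw (ee 2 3) e, tw (ee 3 2) f, tw (ee 1 2) c] (nth [] cR 3)) <|
    allTo (fun d => bimp (rl [tw (ee 0 1) a, tw (ee 1 0) b, tw (ee 2 3) e, tw (ee 3 2) f, tw (ee 1 2) c, tw (ee 2 1) d] (nth [] cR 4)) <|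
    cb [tw (ee 0 1) a, tw (ee 1 0) b, tw (ee 1 2) c, tw (ee 2 1) d, tw (ee 2 3) e, tw (ee 3 2) f]) 16) 16) 16) 16) 16) 16 = true := by decide +kernel
end H10.RG
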