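import Cfsg.Agent.H10.RG.A5

/-! Further independent pieces of the recognition theorem for `2 ^ 10 . L₅(2)`. -/

set_option autoImplicit false
set_option linter.unusedSectionVars false
set_option linter.unusedVariables false
set_option maxRecDepth 100000
set_option synthInstance.maxSize 4000
open Cfsg Subgroup H19 H0 H15 H10.RF Matrix
open scoped commutatorElement Pointwise
namespace H10.RG
local notation "cj" => H19.cj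
universe u
variable {G : Type*} [Group G]
/-- the local part of `TIS` -/
structure TL (M X O Z : Subgroup G) : Prop where
  sq : ∀ x ∈ X, x * x = 1
  ZX : Z ≤ X
  XO : X ≤ O
  OM : O ≤ M
  MX : M ≤ N(X)
  MO : M ≤ N(O)
  sqO : ∀ a ∈ O, a * a ∈ X
  cO : #O = 16 * #X
  ZC : Z ≤ C(O)
  two : ∀ a ∈ O, ∀ b ∈ O, a ∉ X → b ∉ X → a * b ∉ X → X ⊓ C[a] ⊓ C[b] ≤ Z
  one : ∀ a ∈ O, a ∉ X → #(X ⊓ C[a] : Subgroup G) ≤ 2 * #Z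
  hyp : ∀ m ∈ M, #Z ≤ 2 * #(Z ⊓ C[m] : Subgroup G) → m ∈ O
  wc : ∀ B, X ≤ B → B ≤ M → #B = #O → (∀ a ∈ B, a * a ∈ X) → #Z ≤ #(X ⊓ C(B) : Subgroup G) → B = O
  cM : #M = 20160 * #O
  sim : ∀ K, O ≤ K → K ⊴ M → K = O ∨ K = M
  tr : ∀ a ∈ O, ∀ b ∈ O, a ∉ X → b ∉ X → ∃ m ∈ M, m * a * m⁻¹ * b⁻¹ ∈ X
theorem TL.tis [Finite G] {M X O Z : Subgroup G} (h : TL M X O Z) (c : C(X) ≤ X) (n : N(X) ⊓ N(O) ≤ M) : TIS X O Z := by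
  obtain rfl : M = N(X) ⊓ N(O) := le_antisymm (le_inf h.MX h.MO) n
  refine ⟨h.sq, c, h.ZX, h.XO, h.OM.trans h.MX, h.sqO, h.cO, h.ZC, h.two, h.one, h.hyp, fun g hg k => h.wc _
    (cj_of_mem_norm hg ▸ cj_mono g h.XO) (le_inf (cj_of_mem_norm hg ▸ cj_norm g X ▸ cj_mono g (h.OM.trans h.MX)) k) (card_cj _ _)
    (fun a ha => ?_) (card_cj g Z ▸ card_le (le_inf (cj_le_of_mem_norm hg h.ZX) (cj_cent g O ▸ cj_mono g h.ZC))), h.cM, h.sim, h.tr⟩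
  obtain ⟨b, hb, rfl⟩ := mem_cj'.1 ha
  exact cjmul g b b ▸ conj_mem_of_norm hg (h.sqO b hb)
/-- fusion in a weakly closed abelian subgroup -/
theorem fus [Finite G] {S H X Y : Subgroup G} {g : G} (s : Syl 2 S H) (l : X ≤ S) (ab : X ≤ C(X)) (wc : ∀ g ∈ H, cj g X ≤ S → cj g X = X)
    (hg : g ∈ H) (lY : Y ≤ X) (k : cj g Y ≤ X) : ∃ n ∈ H ⊓ N(X), ∀ x ∈ Y, n * x * n⁻¹ = g * x * g⁻¹ := by
  have p := s.pi.of_le l
  have XH := l.trans s.le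
  obtain ⟨R, sR, lR⟩ := p.exists_syl (le_inf XH (cents_symm (lY.trans ab)))
  obtain ⟨c, hc, e⟩ := sR.scj_le (K := cj g⁻¹ X) (le_inf (cj_le_of_mem (inv_mem hg) XH) (by
    rw [cj_le_iff, inv_inv, cj_cent]; exact cents_symm (k.trans ab))) (p.J _)
  obtain ⟨d, hd, f⟩ := s.scj_le (sR.le.trans inf_le_left) sR.pi
  have m := mul_mem (mem_inf.1 hc).1 (inv_mem hg)
  rw [cj_cj] at e
  have := cj_inj.1 ((cj_cj d _ X ▸ wc _ (mul_mem hd m) (cj_cj d _ X ▸ (cj_mono d e).trans f)).trans (wc d hd ((cj_mono d lR).trans f)).symm)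
  refine ⟨_, inv_mem (mem_inf.2 ⟨m, mem_norm_iff_cj.2 this⟩), fun x hx => ?_⟩
  have := mem_cent.1 hc.2 x hx
  rw [_root_.mul_inv_rev, inv_inv, ← cjcj, inv_inv, mul_assoc c⁻¹, this]; group
theorem fus1 [Finite G] {S H X : Subgroup G} {g x : G} (s : Syl 2 S H) (l : X ≤ S) (ab : X ≤ C(X)) (wc : ∀ g ∈ H, cj g X ≤ S → cj g X = X)
    (hg : g ∈ H) (hx : x ∈ X) (k : g * x * g⁻¹ ∈ X) : ∃ n ∈ H ⊓ N(X), n * x * n⁻¹ = g * x * g⁻¹ :=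
  (fus s l ab wc hg (zpowers_le.2 hx) (by rw [cj_zpowers]; exact zpowers_le.2 k)).imp fun _ e => ⟨e.1, e.2 x (mem_zpowers x)⟩
/-- the pattern of `R` and `E₁₃, E₁₄, E₂₃, E₂₄` -/
def mJ : ℕ := 0xf00600c00000
/-- elementary abelian subgroups of order `2 ^ 10` -/
def JT : Prop := ∀ {G : Type u} [Group G] [Finite G] {A : Subgroup G} {ρ : G → ℕ} {v K : ℕ → G}, IK A ρ v K →
  ∀ B ≤ sT v K, (∀ b ∈ B, b * b = 1) → 1024 ≤ #B → B = A ∨ B = X0 v K ∨ B = X1 v K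
/-- the action on the extraspecial group -/
def TQ : Prop := ∀ {G : Type u} [Group G] [Finite G] {A : Subgroup G} {ρ : G → ℕ} {v K : ℕ → G}, IK A ρ v K →
  ES (sQ v K) (v 1) ∧ TS (sT v K) (sQ v K) (v 1) ∧ (∀ X, X = A ∨ X = X0 v K ∨ X = X1 v K → sQ v K ⊓ C(sQ v K ⊓ X) ≤ X) ∧
  (∀ E ≤ sT v K, (∀ e ∈ E, e * e ∈ sQ v K) → 32 * #(E ⊓ sQ v K : Subgroup G) ≤ #E → ∃ e ∈ E, e * K (ee 0 1) ∈ sQ v K) ∧
  ∃ Y x, ∀ S, Syl 2 S C[v 1] → sT v K ≤ S → S ≤ N(sQ v K) → TS S (sQ v K) (v 1) → S ⊓ cm (sQ v K) S ≤ sT v K →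
    S ⊓ C(sQ v K) ≤ sT v K → LS S (sQ v K) A Y (v 1) x
/-- the trivial intersection subgroups -/
def TX : Prop := ∀ {G : Type u} [Group G] [Finite G] {A : Subgroup G} {ρ : G → ℕ} {v K : ℕ → G}, IK A ρ v K →
  TL (sP v K) (X0 v K) (sR v K) (sZ v K) ∧ TL (sP v K) (X1 v K) (sR v K) (sZ v K) ∧
  ∀ B, sR v K ≤ B → B ≤ sT v K → (∀ a ∈ B, a * a ∈ sR v K) → 16 * #(sR v K) ≤ #B → PS v K 1023 mJ ≤ B
/-- coordinates on `X0` -/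
def xv (v K : ℕ → G) (i : ℕ) : G := v (i % 64) * K (ug (i / 64 % 16))
/-- two compatible split extensions -/
structure NM (A : Subgroup G) (ρ : G → ℕ) (v K : ℕ → G) (ρ' : G → ℕ) (K' : ℕ → G) : Prop where
  ik : IK A ρ v K
  ik' : IK (X0 v K) ρ' (xv v K) K'
  eh : ∀ i < 16, K' (ug i) = v (64 * i)
  l0 : ∀ g ∈ [ee 0 1, ee 1 0, ee 1 2, ee 2 1, ee 2 3, ee 3 2], ∃ c < 64, K' g = v c * K g
structure N2 (A : Subgroup G) (ρ : G → ℕ) (v K : ℕ → G) (ρ' : G → ℕ) (K' : ℕ → G) : Prop extends NM A ρ v K ρ' K' where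
  eq : ∀ g ∈ [ee 0 2, ee 1 2, ee 0 3, ee 1 3, ee 2 3, ee 3 2], K' g = K g
  cm : ∀ g ∈ [ee 0 1, ee 1 0, ee 1 2, ee 2 1, ee 3 4, ee 4 3], Commute (K g) (K' (ee 4 3))
/-- the case in which `T` is a Sylow subgroup -/
structure C1 (A : Subgroup G) (ρ : G → ℕ) (v K : ℕ → G) : Prop extends IK A ρ v K where
  syl : Syl 2 (sT v K) ⊤
  wc : ∀ X, X = A ∨ X = X0 v K ∨ X = X1 v K → ∀ g, cj g X ≤ sT v K → cj g X = X
  le : LE (sQ v K) (v 1)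
  cw : C(sW v K) ≤ A
  nw : N(sW v K) ≤ N(A)
def F5 : Prop := ∀ {G : Type u} [Group G] [Finite G] [IsSimpleGroup G] {A : Subgroup G} {ρ : G → ℕ} {v K : ℕ → G}, C1 A ρ v K →
  N(X0 v K) ≤ sP v K → N(X1 v K) ≤ sP v K → False
def F6 : Prop := ∀ {G : Type u} [Group G] [Finite G] {A : Subgroup G} {ρ ρ' : G → ℕ} {v K K' : ℕ → G}, C1 A ρ v K →
  NM A ρ v K ρ' K' → ∃ ρ' K', N2 A ρ v K ρ' K'
def F7 : Prop := ∀ {G : Type u} [Group G] [Finite G] [IsSimpleGroup G] {A : Subgroup G} {ρ ρ' : G → ℕ} {v K K' : ℕ → G}, C1 A ρ v K →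
  N2 A ρ v K ρ' K' → N(X1 v K) ≤ sP v K → Nonempty (G ≃* OM)
/-- `A` is not conjugate to `X1` -/
def DS : Prop := ∀ {G : Type u} [Group G] [Finite G] {A : Subgroup G} {ρ : G → ℕ} {v K : ℕ → G}, IK A ρ v K → ∀ g, cj g A ≠ X1 v K
def CASE1 : Prop := ∀ {G : Type u} [Group G] [Finite G] {A : Subgroup G} {ρ : G → ℕ} {v K : ℕ → G}, IK A ρ v K →
  Oc {2}ᶜ C[v 1] = ⊥ → Syl 2 (sT v K) ⊤ → A.Normal ∨ Nonempty (G ≃* OM)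
/-- the case in which `T` is not a Sylow subgroup -/
structure C2 (A : Subgroup G) (ρ : G → ℕ) (v K : ℕ → G) (w : G) : Prop extends IK A ρ v K where
  w2 : w * w = 1
  wX : w ∈ C(X1 v K)
  wa : ∀ i < 16, w * v (64 * i) * w⁻¹ = K (ug i)
  wm : ∀ p ∈ sP v K, ⁅w, p⁆ ∈ X1 v K
  nR : N(sR v K) = sP v K ⊔ zpowers w
  nO : N(sR v K ⊔ zpowers w) ≤ sP v K ⊔ zpowers w
  tl : TL (sP v K ⊔ zpowers w) (X1 v K ⊔ zpowers w) (sR v K ⊔ zpowers w) (sZ v K)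
  syl : Syl 2 (sT v K ⊔ zpowers w) ⊤
  wc : ∀ g, cj g (X1 v K ⊔ zpowers w) ≤ sT v K ⊔ zpowers w → cj g (X1 v K ⊔ zpowers w) = X1 v K ⊔ zpowers w
def CA : Prop := ∀ {G : Type u} [Group G] [Finite G] {A : Subgroup G} {ρ : G → ℕ} {v K : ℕ → G}, IK A ρ v K →
  ¬ Syl 2 (sT v K) ⊤ → ∃ w, C2 A ρ v K w
def CB : Prop := ∀ {G : Type u} [Group G] [Finite G] {A : Subgroup G} {ρ : G → ℕ} {v K : ℕ → G} {w : G}, C2 A ρ v K w →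
  Oc {2}ᶜ C[v 1] = ⊥ → N(X1 v K ⊔ zpowers w) ≤ N(X1 v K) → Nonempty (G ≃* isometryGroup (ZMod 2) (quadFormPlus 5 (ZMod 2)))
def CC : Prop := ∀ {G : Type u} [Group G] [Finite G] {A : Subgroup G} {ρ : G → ℕ} {v K : ℕ → G} {w : G}, C2 A ρ v K w →
  Oc {2}ᶜ C[v 1] = ⊥ → N(X1 v K ⊔ zpowers w) ≤ N(X1 v K) ∨ IsOfJankoFourType G
end H10.RG
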