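import Cfsg.Agent.H10.RG.A6

/-! Normalization of two split extensions. -/

set_option autoImplicit false
set_option linter.unusedSectionVars false
set_option linter.unusedVariables false
set_option maxRecDepth 100000
set_option synthInstance.maxSize 4000
open Cfsg Subgroup H19 H0 H15 H10.RF Matrix
open scoped commutatorElement Pointwise
namespace H10.RG
local notation "cj" => H19.cj
universe u
variable {G : Type u} [Group G] [Finite G] {A X : Subgroup G} {ρ ρ' : G → ℕ} {v K v' K' : ℕ → G} {a b g i j : ℕ} {n : G}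
theorem g6k : ∀ g ∈ g6, ok g = true ∧ inP mP g ∧ cl11 g 4 = 16 ∧ ∀ k < 4, cl11 g k < 16 ∧ Lv g (64 * 2 ^ k) = 64 * cl11 g k := by
  decide +kernel
theorem ugc : ∀ i < 16, cl11 (ug i) 4 = 2 ^ 4 ^^^ i ∧ (∀ j < 4, cl11 (ug i) j = 2 ^ j) ∧ mm (ug i) (ug i) = I5 ∧
    ∀ t < 32, (t < 16 → a5 (ug i) t = t) ∧ (16 ≤ t → a5 (ug i) t = t ^^^ i) := by decide +kernel
theorem Lv_I (a : ℕ) : Lv I5 a = a % 1024 := by
  rw [Lv, mv_eq, lin_succ, show cl11 (L2 I5) 10 = 0 by decide +kernel, ite_self, Nat.xor_zero,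
    lin_congr _ _ _ _ (by decide +kernel : ∀ j < 10, cl11 (L2 I5) j = 2 ^ j), lin_two_pow]
  rfl
theorem m64 (a b : ℕ) : 64 * (a ^^^ b) = 64 * a ^^^ 64 * b := by
  simpa only [Nat.shiftLeft_eq, mul_comm] using Nat.shiftLeft_xor_distrib (i := 6) (a := a) (b := b)
namespace IK
variable (h : IK A ρ v K)
include h
theorem vmod (a : ℕ) : v (a % 1024) = v a := by rw [← Lv_I, ← h.one, ← h.cjv (one_mem _)]; simp
theorem K6 (hg : g ∈ g6) : K g ∈ sP v K := h.KP (g6k g hg).1 (g6k g hg).2.1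
theorem G1 (h' : IK X ρ' v' K') (hP : sP v K ≤ sP v' K') (e : ∀ i < 16, ρ' (v (64 * i)) = ug i) :
    ∃ u < 16, ∀ g ∈ g6, mm (mm (ug u) (ρ' (K g))) (ug u) = g := by
  have vn := fun a => h'.PN (hP (h.AP (h.vm a)))
  have s : ∀ g ∈ g6, ∃ c < 16, ρ' (K g) = tw g c := fun g hg => by
    obtain ⟨o, -, c4, c⟩ := g6k g hg
    have kn := h'.PN (hP (h.K6 hg))
    have o' := h'.okr _ kn
    have t : 16 ≤ cl11 (ρ' (K g)) 4 := (by decide : ∀ t < 32, sb (t ^^^ 2 ^ 4) (cl11 mP 4) → 16 ≤ t) _ (ok_cl o' (by decide))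
      (h'.rP gdk.2.2.2.1 (hP (h.K6 hg)) 4 (by decide))
    have q : ∀ k < 4, cl11 (ρ' (K g)) k = cl11 g k := fun k hk => by
      have l : 2 ^ k < 2 ^ 4 := Nat.pow_lt_pow_right one_lt_two hk
      have := congrArg (fun x => cl11 (ρ' x) 4) (h.Kv o (64 * 2 ^ k))
      simp only [h'.mul _ kn _ (vn _), h'.mul _ (vn _) _ kn, (c k hk).2, e _ l, e _ (c k hk).1, cl_mm _ _ (show 4 < 5 by decide),
        (ugc _ l).1, a5_xor, a5_pow (show 4 < 5 by decide), a5_pow (hk.trans (show 4 < 5 by decide)),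
        ((ugc _ (c k hk).1).2.2.2 _ (ok_cl o' (show 4 < 5 by decide))).2 t] at this
      exact Nat.xor_right_inj.1 this
    have := ok_cl o' (show 4 < 5 by decide)
    refine ⟨cl11 (ρ' (K g)) 4 - 16, by omega, ?_⟩
    have p := ok_pk o
    have p' := ok_pk o'
    rw [q 0 (by decide), q 1 (by decide), q 2 (by decide), q 3 (by decide)] at p'
    simp only [tw, Nat.add_eq, Nat.mul_eq]
    omega
  have r := fun t R => rl_map (φ := fun g => ρ' (K g)) (p := fun g => ok g = true ∧ inP mP g) (by rw [h.K1, h'.one]) ⟨okI.1, inP_I _⟩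
    (fun f g p q => ⟨⟨ok_mm p.1 q.1, p.2.mm gdk.2.2.2.1.2 q.2 q.1⟩, by
      rw [h.km f g p.1 q.1, h'.mul _ (h'.PN (hP (h.KP p.1 p.2))) _ (h'.PN (hP (h.KP q.1 q.2)))]⟩) (t := t) (R := R)
  simp only [g6, List.forall_mem_cons] at s ⊢
  obtain ⟨⟨a, ha, ea⟩, ⟨b, hb, eb⟩, ⟨c, hc, ec⟩, ⟨d, hd, ed⟩, ⟨e, he, ee'⟩, ⟨f, hf, ef⟩, -⟩ := s
  have k := coc
  simp only [allTo_iff, bimp_iff] at k
  have := k a ha b hb (by simpa only [List.map, ea, eb] using r [ee 0 1, ee 1 0] _ (by decide +kernel))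
    e he (by simpa only [List.map, ea, eb, ee'] using r [ee 0 1, ee 1 0, ee 2 3] _ (by decide +kernel))
    f hf (by simpa only [List.map, ea, eb, ee', ef] using r [ee 0 1, ee 1 0, ee 2 3, ee 3 2] _ (by decide +kernel))
    c hc (by simpa only [List.map, ea, eb, ee', ef, ec] using r [ee 0 1, ee 1 0, ee 2 3, ee 3 2, ee 1 2] _ (by decide +kernel))
    d hd (by simpa only [List.map, ea, eb, ee', ef, ec, ed] using r [ee 0 1, ee 1 0, ee 2 3, ee 3 2, ee 1 2, ee 2 1] _ (by decide +kernel))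
  simpa only [cb, decide_eq_true_eq, List.map, g6, List.cons.injEq, ea, eb, ec, ed, ee', ef, List.not_mem_nil, false_imp_iff,
    implies_true] using this
theorem xvx (a b : ℕ) : xv v K (a ^^^ b) = xv v K a * xv v K b := by
  have l : ∀ a, a / 64 % 16 < 16 := fun a => Nat.mod_lt _ (by decide)
  rw [xv, xv, xv, h.mulR (l a) (l b), (x1k' (l a) (by omega)).2.2 (by omega), show (a ^^^ b) % 64 = _ from Nat.xor_mod_two_pow (n := 6),
    show (a ^^^ b) / 64 = _ from Nat.xor_div_two_pow (n := 6), show (_ ^^^ _) % 16 = _ from Nat.xor_mod_two_pow (n := 4)]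
theorem G3 (h' : IK X ρ' v' K') (hX : X = X0 v K ∨ X = X1 v K) (e : ∀ g ∈ g6, ρ' (K g) = g) : X = X0 v K ∧ v' = xv v K := by
  have PX : sP v K ≤ N(X) := hX.elim (· ▸ h.PX0) (· ▸ h.PX1)
  have XR : X ≤ sR v K := hX.elim (· ▸ h.X0R) (· ▸ h.X1R)
  have c : ∀ g ∈ g6, ∀ b a i, i < 16 → v' b = v a * K (ug i) → v' (Lv g b) * K g = v (Lv g a) * K (mm g (ug i)) := fun g hg b a i hi q => by
    rw [← e g hg, ← h'.cjv (PX (h.K6 hg)), e g hg, q, inv_mul_cancel_right, h.km _ _ (g6k g hg).1 (ugk i (by omega)).1, ← mul_assoc,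
      h.Kv (g6k g hg).1, mul_assoc]
  have st : ∀ g ∈ g6, ∀ b a i j, i < 16 ∧ j < 16 ∧ mm g (ug i) = mm (ug j) g → v' b = v a * K (ug i) →
      v' (Lv g b) = v (Lv g a) * K (ug j) := fun g hg b a i j p q => mul_right_cancel (b := K g) (by
    rw [c g hg b a i p.1 q, p.2.2, h.km _ _ (ugk j (by omega)).1 (g6k g hg).1, mul_assoc])
  have fx : ∀ b < 1024, b ≠ 0 → ∃ a < 1024, ∃ i < 16, v' b = v a * K (ug i) ∧ ¬ (a = 0 ∧ i = 0) ∧ (X = X0 v K → a / 64 = 0) ∧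
      (X = X1 v K → a / 64 = i) ∧ ∀ g ∈ g6, Lv g b = b → Lv g a = a ∧ mm g (ug i) = mm (ug i) g := fun b hb b0 => by
    obtain ⟨a, ha, i, hi, q⟩ := h.exR (XR (h'.vm b))
    refine ⟨a, ha, i, hi, q, ?_, fun r => (h.mX0 ha hi).1 (q ▸ r ▸ h'.vm b), fun r => (h.mX1 ha hi).1 (q ▸ r ▸ h'.vm b), fun g hg r => ?_⟩
    · rintro ⟨rfl, rfl⟩
      exact b0 ((h'.v1 hb).1 (q.trans (by rw [h.v0, one_mul]; exact h.K1)))
    · have o := (g6k g hg).1
      have o' := (ugk i (by omega)).1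
      have := c g hg b a i hi q
      rw [r, q, mul_assoc, ← h.km _ _ o' o] at this
      exact (h.uniq (Lv_lt _ _) ha (ok_mm o o') (ok_mm o' o) this.symm)
  obtain ⟨a, ha, i, hi, q, n, q0, q1, r⟩ := fx 64 (by decide) (by decide)
  have r1 := (by decide +kernel : ∀ a < 1024, (∀ g ∈ g6, Lv g 64 = 64 → Lv g a = a) → a = 0 ∨ a = 64) a ha fun g hg t => (r g hg t).1
  have r2 := (by decide +kernel : ∀ i < 16, (∀ g ∈ g6, Lv g 64 = 64 → mm g (ug i) = mm (ug i) g) → i = 0 ∨ i = 1) i hi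
    fun g hg t => (r g hg t).2
  obtain rfl | rfl := hX
  · obtain ⟨rfl, rfl⟩ : a = 0 ∧ i = 1 := by have := q0 rfl; omega
    obtain ⟨a, ha, i, hi, p, n, -, -, r⟩ := fx 1 (by decide) (by decide)
    obtain rfl := (by decide +kernel : ∀ i < 16, (∀ g ∈ g6, Lv g 1 = 1 → mm g (ug i) = mm (ug i) g) → i = 0) i hi fun g hg t => (r g hg t).2
    obtain rfl := ((by decide +kernel : ∀ a < 1024, (∀ g ∈ g6, Lv g 1 = 1 → Lv g a = a) → a = 0 ∨ a = 1) a ha
      fun g hg t => (r g hg t).1).resolve_left fun t => n ⟨t, rfl⟩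
    have x : ∀ a b, v' a = xv v K a → v' b = xv v K b → v' (a ^^^ b) = xv v K (a ^^^ b) := fun a b p q => by rw [h'.vx, h.xvx, p, q]
    have s : ∀ j k, (∃ g ∈ g6, 2 ^ j ^^^ Lv g (2 ^ j) = 2 ^ k ∧ Lv g (2 ^ j % 64) = Lv g (2 ^ j) % 64 ∧
        mm g (ug (2 ^ j / 64 % 16)) = mm (ug (Lv g (2 ^ j) / 64 % 16)) g) → v' (2 ^ j) = xv v K (2 ^ j) → v' (2 ^ k) = xv v K (2 ^ k) :=
      fun j k ⟨g, hg, t⟩ p => t.1 ▸ x _ _ p ((st g hg _ _ _ _ ⟨Nat.mod_lt _ (by decide), Nat.mod_lt _ (by decide), t.2.2⟩ p).trans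
        (by rw [t.2.1, xv]))
    have s1 := s 0 1 (by decide +kernel) p
    have s3 := s 1 3 (by decide +kernel) s1
    have s4 := s 3 4 (by decide +kernel) s3
    have s7 := s 6 7 (by decide +kernel) q
    have s8 := s 7 8 (by decide +kernel) s7
    refine ⟨rfl, funext fun a => ?_⟩
    rw [← h'.vmod, show xv v K a = xv v K (a % 1024) by
      rw [xv, xv, show a % 1024 % 64 = a % 64 by omega, show a % 1024 / 64 % 16 = a / 64 % 16 by omega], show 1024 = 2 ^ 10 from rfl, ← lin_two_pow]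
    refine lin_induction' (fun a => v' a = xv v K a) (by simpa using x 1 1 p p) x _ _ _ fun k hk _ => ?_
    interval_cases k
    exacts [p, s1, s 1 2 (by decide +kernel) s1, s3, s4, s 4 5 (by decide +kernel) s4, q, s7, s8, s 8 9 (by decide +kernel) s8]
  · obtain ⟨rfl, rfl⟩ : a = 64 ∧ i = 1 := by have := q1 rfl; omega
    have q3 := st (ee 1 0) (by decide) _ _ 1 3 (by decide +kernel) q
    have q2 := st (ee 0 1) (by decide) _ _ 3 2 (by decide +kernel) q3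
    have := h'.vx 64 (Lv (ee 0 1) (Lv (ee 1 0) 64))
    rw [q, q2, show 64 ^^^ _ = Lv (ee 1 0) 64 by decide +kernel, q3, h.mulR (by decide) (by decide)] at this
    exact absurd (h.uniq (Lv_lt _ _) (by decide +kernel) (by decide +kernel) (by decide +kernel) this).1 (by decide +kernel)
theorem AX (hX : X = X0 v K ∨ X = X1 v K) : X ≠ A := fun e => hX.elim
  (fun q => absurd ((h.mA (a := 0) (i := 1) (by decide) (by decide)).1 (e ▸ q ▸ (h.mX0 (by decide) (by decide)).2 rfl)) (by decide))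
  fun q => absurd ((h.mA (a := 64) (i := 1) (by decide) (by decide)).1 (e ▸ q ▸ (h.mX1 (by decide) (by decide)).2 rfl)) (by decide)
theorem X01 : X0 v K ≠ X1 v K := fun e =>
  absurd ((h.mX1 (a := 0) (i := 1) (by decide) (by decide)).1 (e ▸ (h.mX0 (by decide) (by decide)).2 rfl)) (by decide)
end IK
/-- the second system of coordinates has the same parabolic subgroup -/
def Iv (A X : Subgroup G) (v K : ℕ → G) (ρ' : G → ℕ) (v' K' : ℕ → G) : Prop :=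
  IK X ρ' v' K' ∧ sP v' K' = sP v K ∧ (X0 v' K' = A ∨ X1 v' K' = A)
theorem Iv.cjg (h : IK A ρ v K) (k : Iv A X v K ρ' v' K') (hn : n ∈ sP v K) : Iv A X v K (fun x => ρ' (n⁻¹ * x * n)) (cf n v') (cf n K') :=
  ⟨cj_of_mem_norm (k.1.PN (k.2.1 ▸ hn)) ▸ k.1.cjg n, by rw [sP, cj_PS, ← sP, k.2.1, cj_of_mem hn],
    k.2.2.imp (fun e => by rw [X0, cj_PS, ← X0, e, cj_of_mem_norm (h.PN hn)]) fun e => by rw [cj_X1, e, cj_of_mem_norm (h.PN hn)]⟩
theorem Iv.g2 (h : IK A ρ v K) (k : Iv A X v K ρ' v' K') (e : ∀ i < 16, ρ' (v (64 * i)) = ug i) : ∃ u < 16,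
    ∀ g ∈ g6, ρ' ((K' (ug u))⁻¹ * K g * K' (ug u)) = g := (h.G1 k.1 k.2.1.ge e).imp fun u p => ⟨p.1, fun g hg => by
  have o := (ugk u (by omega)).1
  have kn := k.1.PN (k.2.1.ge (h.K6 hg))
  rw [inv_eq_of_mul_eq_one_right (k.1.Ksq o (ugc u p.1).2.2.1), k.1.mul _ (mul_mem (k.1.kn _) kn) _ (k.1.kn _), k.1.mul _ (k.1.kn _) _ kn,
    k.1.kr _ o, p.2 g hg]⟩
theorem IK.G0 (jt : JT.{u}) (h : IK A ρ v K) (h' : IK X ρ' v' K') (hX : X = X0 v K ∨ X = X1 v K) :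
    ∃ ρ' v' K', Iv A X v K ρ' v' K' ∧ ∀ g ∈ g6, ρ' (K g) = g := by
  have PX : sP v K ≤ N(X) := hX.elim (· ▸ h.PX0) (· ▸ h.PX1)
  have XR : X ≤ sR v K := hX.elim (· ▸ h.X0R) (· ▸ h.X1R)
  obtain ⟨ρ1, v1, K1, h1, e1⟩ : ∃ ρ1 v1 K1, IK X ρ1 v1 K1 ∧ sT v K = sT v1 K1 := by
    obtain ⟨n, hn, e⟩ := h'.sylT.scj_le (h.TP.trans PX) h.pT
    have k := cj_of_mem_norm (inv_mem hn) ▸ h'.cjg n⁻¹
    exact ⟨_, _, _, k, eq_of_le_of_card_eq (by rw [sT, sT, cj_PS, ← cj_le_iff]; exact e) (h.cT.trans k.cT.symm)⟩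
  have R1 : sR v1 K1 = sR v K := eq_of_le_of_card_eq (h1.AX0 ▸ sup_le XR (by
    rcases jt h _ (e1 ▸ h1.X0R.trans h1.RT) h1.sq0 h1.cX0.ge with e | e | e <;> rw [e]
    exacts [h.AP, h.X0R, h.X1R])) (h1.cR.trans h.cR.symm)
  have k1 : Iv A X v K ρ1 v1 K1 := ⟨h1, (eq_of_le_of_card_eq (h1.NR ▸ le_inf PX (R1 ▸ h.PR)) (h.cP.trans h1.cP.symm)).symm,
    ((jt h1 A (e1 ▸ h.AP) h.sq h.cA.ge).resolve_left (h.AX hX).symm).imp Eq.symm Eq.symm⟩
  have vn := fun a => PX (h.AP (h.vm a))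
  choose f f1 f2 using fun i => (show ∃ j < 16, ρ1 (v (64 * i)) = ug j from
    let ⟨a, ha, j, hj, e⟩ := h1.exR (R1.ge (h.AP (h.vm (64 * i)))); ⟨j, hj, by rw [e, h1.rel (ugk j (by omega)).1]⟩)
  have fx : ∀ a b, f (a ^^^ b) = f a ^^^ f b := fun a b => by
    have := congrArg ui ((f2 (a ^^^ b)).symm.trans (by rw [m64, h.vx, h1.mul _ (vn _) _ (vn _), f2, f2, (x1k _ (f1 a)).2.1 _ (f1 b)]))
    rwa [(ugk _ ((f1 _).trans (by decide))).2.2, (ugk _ (x10 ((f1 _).trans (by decide)) ((f1 _).trans (by decide)))).2.2] at this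
  have f0 : f 0 = 0 := by simpa using fx 0 0
  obtain ⟨B, o, eB⟩ := exB (F := fun u => f (u % 16) ^^^ (u &&& 16)) (fun a b => by
      simp only [show (a ^^^ b) % 16 = a % 16 ^^^ b % 16 from Nat.xor_mod_two_pow (n := 4), fx, Nat.and_xor_distrib_right, Nat.xor_assoc, Nat.xor_left_comm])
    (fun j hj => Nat.xor_lt_two_pow (n := 5) ((f1 _).trans (by decide)) (Nat.and_le_right.trans_lt (by decide))) fun u hu e => by
      have t := (by decide : ∀ u < 32, ∀ j < 16, j ^^^ (u &&& 16) = 0 → j = 0 ∧ u < 16) u hu _ (f1 _) e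
      have := (h1.rA (vn _)).1 ((f2 (u % 16)).trans (congrArg ug t.1))
      rw [← mul_one (v _), ← h.K1] at this
      have l : 64 * (u % 16) < 1024 := by omega
      rcases hX with q | q
      · have := (h.mX0 (i := 0) l (by decide)).1 (q ▸ this); omega
      · have := (h.mX1 (i := 0) l (by decide)).1 (q ▸ this); omega
  have c : ∀ j < 4, cl11 B j < 16 := fun j hj => by
    rw [← a5_pow (by omega), eB _ ((by decide : ∀ j < 4, 2 ^ j < 32) j hj), (by decide : ∀ j < 4, 2 ^ j &&& 16 = 0) j hj, Nat.xor_zero]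
    exact f1 _
  have nP : K1 B ∈ sP v K := k1.2.1 ▸ h1.KP o (inP_mP o c)
  have k2 := k1.cjg h nP
  obtain ⟨u, hu, e⟩ := k2.g2 h fun i hi => by
    have m := mul_mem (mul_mem (inv_mem (PX nP)) (vn (64 * i))) (PX nP)
    have oi := (ugk i (by omega)).1
    have of := (ugk _ ((f1 i).trans (by decide))).1
    have t := h1.mul _ (PX nP) _ m
    rw [← mul_assoc, mul_inv_cancel_left, h1.mul _ (vn _) _ (PX nP), h1.kr B o, f2] at t
    refine mm_cancel o (h1.okr _ m) oi (t.symm.trans ?_)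
    refine ok_ext (ok_mm of o) (ok_mm o oi) fun j hj => ?_
    rw [cl_mm _ _ hj, cl_mm _ _ hj]
    obtain hj | rfl := Nat.lt_succ_iff_lt_or_eq.1 hj
    · rw [(ugc i hi).2.1 j hj, a5_pow (by omega), ((ugc _ (f1 i)).2.2.2 _ (ok_cl o (by omega))).1 (c j hj)]
    · have t := (by decide : ∀ i < 16, 2 ^ 4 ^^^ i < 32 ∧ (2 ^ 4 ^^^ i) % 16 = i ∧ (2 ^ 4 ^^^ i) &&& 16 = 16) i hi
      rw [(ugc i hi).1, eB _ t.1, t.2.1, t.2.2, ← a5_pow (show 4 < 5 by decide), eB _ (by decide), show 2 ^ 4 % 16 = 0 from rfl, f0,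
        ((ugc _ (f1 i)).2.2.2 _ (by decide)).2 (by decide), Nat.xor_comm]
      rfl
  exact ⟨_, _, _, k2.cjg h (k2.2.1 ▸ k2.1.RT.trans k2.1.TP (k2.1.KP (ugk u (by omega)).1 (x1k u hu).2.2.1)), e⟩
theorem IK.nX (jt : JT.{u}) (h : IK A ρ v K) (h' : IK (X1 v K) ρ' v' K') : False :=
  let ⟨_, _, _, k, e⟩ := h.G0 jt h' (.inr rfl); h.X01 (h.G3 k.1 (.inr rfl) e).1.symm
theorem ds (jt : JT.{u}) : DS.{u} := fun h g e => h.nX jt (e ▸ h.cjg g)
theorem norm (jt : JT.{u}) (h : IK A ρ v K) (h' : IK (X0 v K) ρ' v' K') : ∃ ρ' K', NM A ρ v K ρ' K' := by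
  obtain ⟨ρ1, v1, K1, k, e⟩ := h.G0 jt h' (.inl rfl)
  obtain rfl := (h.G3 k.1 (.inl rfl) e).2
  have a0 := k.2.2.resolve_right fun q => k.1.nX jt (q ▸ h)
  have x : ∀ i < 16, xv v K (64 * i) = K (ug i) := fun i hi => by
    rw [xv, Nat.mul_mod_right, h.v0, one_mul, show 64 * i / 64 % 16 = i by omega]
  obtain ⟨u, hu, r⟩ := Iv.g2 (A := X0 v K) (X := A) k.1 ⟨h, k.2.1.symm, .inl rfl⟩ fun i hi => by rw [x i hi, h.kr _ (ugk i (by omega)).1]
  have y : (K (ug u))⁻¹ ∈ X0 v K := inv_mem (h.KP (ugk u (by omega)).1 (x1k u hu).2.2.1)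
  have k2 := k.cjg h (h.X0R.trans (h.RT.trans h.TP) y)
  rw [show cf (K (ug u))⁻¹ (xv v K) = xv v K from funext fun a => cjc (cent_le_cent1 (k.1.vm a) (ab_sq h.sq0 y))] at k2
  have r' : ∀ g ∈ g6, ρ (cf (K (ug u))⁻¹ K1 g) = g := by simpa only [cf, inv_inv] using r
  have a1 := k2.2.2.resolve_right fun q => k2.1.nX jt (q ▸ h)
  have t := (k2.1.G3 h (.inl a1.symm) r').2
  refine ⟨_, _, h, k2.1, fun i hi => ?_, fun g hg => ?_⟩
  · conv_rhs => rw [t, xv, Nat.mul_mod_right, k2.1.v0, one_mul, show 64 * i / 64 % 16 = i by omega]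
  · have kp := k2.2.1 ▸ k2.1.K6 hg
    obtain ⟨a, ha, q⟩ := h.dec (h.PN kp)
    rw [r' g hg] at q
    have n := h.PX0 (h.K6 hg)
    have m := (k2.1.eqv _ (h.PX0 kp) _ n).1 ((k2.1.kr g (g6k g hg).1).trans (by
      rw [k.1.mul _ (mul_mem (inv_mem (le_normalizer y)) n) _ (le_normalizer y), k.1.rl (inv_mem y) n, (k.1.rA (le_normalizer y)).2 y,
        ← k.1.one, ← k.1.mul _ n _ (one_mem _), mul_one, e g hg]))
    rw [q, mul_inv_cancel_right, ← mul_one (v a), ← h.K1] at m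
    exact ⟨a, by have := (h.mX0 (i := 0) ha (by decide)).1 m; omega, q⟩
end H10.RG
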