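import Cfsg.Agent.H10.RG.N1

/-! The second split extension is compatible with the first. -/

set_option autoImplicit false
set_option linter.unusedSectionVars false
set_option linter.unusedVariables false
set_option maxRecDepth 100000
set_option synthInstance.maxSize 4000
open Cfsg Subgroup H19 H0 H15 H10.RF Matrix
open scoped commutatorElement Pointwise
namespace H10.RG
local notation "cj" => H19.cj
open H16 (nth)
universe u
variable {G : Type u} [Group G] [Finite G] {A : Subgroup G} {ρ ρ' : G → ℕ} {v K K' : ℕ → G} {a b c g z : ℕ} {x y : G} {f f' : ℕ → ℕ}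
theorem sq_syl {S D R : Subgroup G} (s : Syl 2 S D) (n : D ≤ N(R)) (q : ∀ t ∈ S, t * t ∈ R) (hx : x ∈ D) : ∃ m, Odd m ∧ (x * x) ^ m ∈ R := by
  obtain ⟨P, p⟩ := exists_syl 2 (zpowers x)
  have u := pow_q (normal_of_ab inferInstance p.le).norm (mem_zpowers x)
  obtain ⟨d, hd, e⟩ := s.scj_le (p.le.trans (zpowers_le.2 hx)) p.pi
  have := conj_mem_of_norm' (n hd) (q _ (e (conj_mem_cj.2 u)))
  exact ⟨_, Nat.not_even_iff_odd.1 fun e => p.not_dvd Nat.prime_two e.two_dvd, by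
    rw [(Commute.refl x).mul_pow]; convert this using 1; group⟩
/-- an element of order seven -/
def et : ℕ := 281543708784642
def m4 : ℕ := 0x1f03e00000000
abbrev Z3 (v K : ℕ → G) := PS v K 7 0
abbrev R3 (v K : ℕ → G) := PS v K 511 m3
def pa (w : ℕ) : ℕ := 8 * (w % 2) + 64 * (w / 2 % 2)
def pb (w : ℕ) : ℕ := 16 * (w / 4 % 2) + w / 8 % 2
/-- a section on which four root elements act -/
def ph (v K : ℕ → G) (w : ℕ) : G := v (pa w) * K (ug (pb w))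
def Act (v K : ℕ → G) (x : G) (f : ℕ → ℕ) : Prop :=
  x ∈ C(Z3 v K) ∧ ∀ w < 16, f w < 16 ∧ x * ph v K w * x⁻¹ * (ph v K (f w))⁻¹ ∈ Z3 v K
theorem Act.mul (h : Act v K x f) (k : Act v K y f') : Act v K (x * y) fun w => f (f' w) := ⟨mul_mem h.1 k.1, fun w hw =>
  ⟨(h.2 _ (k.2 w hw).1).1, by
    convert mul_mem (conj_mem_of_norm (cent_le_norm _ h.1) (k.2 w hw).2) (h.2 _ (k.2 w hw).1).2 using 1; group⟩⟩
theorem phk : (∀ w < 16, pb w < 1024 ∧ sb (pa w) 511 ∧ inP m3 (ug (pb w)) ∧ ∀ w' < 16, pa (w ^^^ w') = pa w ^^^ Lv (ug (pb w)) (pa w') ∧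
    ug (pb (w ^^^ w')) = mm (ug (pb w)) (ug (pb w'))) ∧ (gd 1023 m4 ∧ gd 7 0 ∧ lm m4 7 0) ∧ gd 511 m3 ∧ ok et = true := by decide +kernel
namespace IK
variable (h : IK A ρ v K)
include h
theorem c4 : PS v K 1023 m4 ≤ C(Z3 v K) ⊓ N(R3 v K) := le_inf (h.cent phk.2.1) (h.nrm (by decide +kernel))
theorem R4 : R3 v K ≤ PS v K 1023 m4 := PS_le (by decide) (by decide +kernel)
theorem ex3 (hx : x ∈ Z3 v K) : ∃ z < 8, x = v z := let ⟨z, p, e⟩ := h.memV phk.2.1.2.1 hx (h.PA hx); ⟨z, (sb_lt 3).1 p, e⟩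
theorem v3 (hz : z < 8) : v z ∈ Z3 v K := h.vP ((sb_lt 3).2 hz)
theorem phR (ha : a < 16) : ph v K a ∈ R3 v K := let p := phk.1 a ha; el_PS p.2.1 (ugk _ p.1).1 p.2.2.1
theorem phx (ha : a < 16) (hb : b < 16) : ph v K (a ^^^ b) = ph v K a * ph v K b := by
  rw [ph, ph, ph, h.elm (ugk _ (phk.1 a ha).1).1 (ugk _ (phk.1 b hb).1).1, ((phk.1 a ha).2.2.2 b hb).1, ((phk.1 a ha).2.2.2 b hb).2]
theorem actK (d : ok g = true ∧ inP m4 g ∧ ∀ w < 16, f w < 16 ∧ Lv g (pa w) = pa (f w) ∧ mm g (ug (pb w)) = mm (ug (pb (f w))) g) :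
    Act v K (K g) f := ⟨(h.c4 (h.KP d.1 d.2.1)).1, fun w hw => ⟨(d.2.2 w hw).1, by
  rw [ph, ← mul_assoc, h.Kv d.1, mul_assoc (v _), ← h.km _ _ d.1 (ugk _ (phk.1 w hw).1).1, (d.2.2 w hw).2.2,
    h.km _ _ (ugk _ (phk.1 _ (d.2.2 w hw).1).1).1 d.1, (d.2.2 w hw).2.1, ← mul_assoc, mul_inv_cancel_right, ph, mul_inv_cancel]
  exact one_mem _⟩⟩
theorem actB (hx : x ∈ C(Z3 v K)) (l : ∀ w < 16, a5 g w < 16)
    (e : ∀ j < 4, x * ph v K (2 ^ j) * x⁻¹ * (ph v K (a5 g (2 ^ j)))⁻¹ ∈ Z3 v K) : Act v K x (a5 g) := ⟨hx, fun w hw => ⟨l w hw, by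
  have p0 : ph v K 0 = 1 := by simpa using h.phx (a := 0) (b := 0) (by decide) (by decide)
  have := lin_induction' (fun w => w < 16 ∧ x * ph v K w * x⁻¹ * (ph v K (a5 g w))⁻¹ ∈ Z3 v K)
    ⟨by decide, by rw [show a5 g 0 = 0 by simpa using a5_xor g 0 0, p0]; simpa using one_mem _⟩ (fun a b p q =>
      ⟨Nat.xor_lt_two_pow (n := 4) p.1 q.1, by
        rw [a5_xor, h.phx p.1 q.1, h.phx (l a p.1) (l b q.1)]
        convert mul_mem (conj_mem_of_norm (cent_le_norm _ (mul_mem (mul_mem hx (h.c4 (h.R4 (h.phR p.1))).1) (inv_mem hx))) q.2) p.2 using 1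
        group⟩) (fun j => 2 ^ j) 4 w fun j hj _ => ⟨Nat.pow_lt_pow_right (n := 4) one_lt_two hj, e j hj⟩
  rw [lin_two_pow, Nat.mod_eq_of_lt (show w < 2 ^ 4 from hw)] at this
  exact this.2⟩⟩
theorem eta {p q : ℕ → G} (px : ∀ a < 8, ∀ b < 8, p (a ^^^ b) = p a * p b) (qx : ∀ a < 8, ∀ b < 8, q (a ^^^ b) = q a * q b)
    (pe : ∀ u < 8, K et * p u * (K et)⁻¹ = p (a5 et u)) (qe : ∀ u < 8, K et * q u * (K et)⁻¹ = q (a5 et u))
    (c : p 1 ∈ C(Z3 v K)) (k : q 1 * (p 1)⁻¹ ∈ Z3 v K) : ∀ u < 8, q u = p u := by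
  obtain ⟨z, hz, e⟩ := h.ex3 k
  have s : ∀ u < 8, ∀ z, q u = v z * p u → q (a5 et u) = v (Lv et z) * p (a5 et u) := fun u hu z e => by
    rw [← qe u hu, e, cjmul, pe u hu, h.Kcj phk.2.2.2]
  have x : ∀ a b, a < 8 ∧ b < 8 → q a = p a → q b = p b → q (a ^^^ b) = p (a ^^^ b) := fun a b l e f => by rw [px a l.1 b l.2, qx a l.1 b l.2, e, f]
  have e1 := mul_inv_eq_iff_eq_mul.1 e
  have e2 : q 2 = _ * p 2 := s 1 (by decide) _ e1
  have e7 : q 7 = _ * p 7 := s 2 (by decide) _ e2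
  have e6 : q (1 ^^^ 7) = _ * p (1 ^^^ 7) := s 7 (by decide) _ e7
  have t := (by decide +kernel : ∀ z < 8, Lv et (Lv et z) < 8 ∧ (z ^^^ Lv et (Lv et z) = Lv et (Lv et (Lv et z)) → z = 0)) z hz
  rw [qx 1 (by decide) 7 (by decide), px 1 (by decide) 7 (by decide), e1, e7, mul_assoc, ← mul_assoc (p 1), ← mem_cent.1 c _ (h.v3 t.1),
    mul_assoc, ← mul_assoc, ← h.vx] at e6
  obtain rfl := t.2 (h.vi _ (x10 (by omega) (Lv_lt _ _)) _ (Lv_lt _ _) (mul_right_cancel e6))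
  simp only [show Lv et 0 = 0 by decide +kernel, h.v0, one_mul] at e1 e2 e7
  have e3 := x 1 2 (by decide) e1 e2
  intro u hu
  interval_cases u
  exacts [x 1 1 (by decide) e1 e1, e1, e2, e3, x 3 7 (by decide) e3 e7, x 2 7 (by decide) e2 e7, x 1 7 (by decide) e1 e7, e7]
end IK
namespace NM
variable (n : NM A ρ v K ρ' K')
include n
theorem gv (o : ok g = true) (e : K' g = v c * K g) (z : ℕ) : cf (v z) K' g = v (z ^^^ c ^^^ Lv g z) * K g := by
  rw [cf, e, n.ik.vinv, mul_assoc, mul_assoc, n.ik.Kv o, n.ik.vx, n.ik.vx]; simp only [mul_assoc]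
theorem xv0 (hc : c < 64) : xv v K c = v c := by
  rw [xv, Nat.mod_eq_of_lt hc, Nat.div_eq_of_lt hc]; exact (congrArg _ n.ik.K1).trans (mul_one _)
theorem gauge (hz : z < 64) : NM A ρ v K (fun x => ρ' ((v z)⁻¹ * x * v z)) (cf (v z) K') := by
  have y : v z ∈ X0 v K := n.xv0 hz ▸ n.ik'.vm z
  have k := cj_of_mem y ▸ n.ik'.cjg (v z)
  rw [show cf (v z) (xv v K) = xv v K from funext fun a => cjc (cent_le_cent1 (n.ik'.vm a) (ab_sq n.ik.sq0 y))] at k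
  refine ⟨n.ik, k, fun i hi => ?_, fun g hg => ?_⟩
  · rw [cf, n.eh i hi]; exact cjc (cent_le_cent1 (n.ik.vm _) (ab_sq n.ik.sq (n.ik.vm z)))
  · obtain ⟨c, hc, e⟩ := n.l0 g hg
    exact ⟨_, Nat.xor_lt_two_pow (n := 6) (Nat.xor_lt_two_pow (n := 6) hz hc) ((sb_lt 6).1 (lm.sb' (by decide +kernel) (g6k g hg).1
      (g6k g hg).2.1 ((sb_lt 6).2 hz))), n.gv (g6k g hg).1 e z⟩
theorem lw (l : List ℕ) : ok (ew g6 l) = true ∧ inP mP (ew g6 l) ∧ ∃ c < 64, K' (ew g6 l) = v c * K (ew g6 l) := by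
  have i : ok I5 = true ∧ inP mP I5 ∧ ∃ c < 64, K' I5 = v c * K I5 :=
    ⟨okI.1, inP_I _, 0, by decide, by rw [n.ik'.K1, n.ik.K1, n.ik.v0, mul_one]⟩
  induction l with
  | nil => exact i
  | cons k l ih =>
    obtain ⟨o, p, b, hb, e⟩ := ih
    obtain ⟨o', p', a, ha, e'⟩ : ok (nth I5 g6 k) = true ∧ inP mP (nth I5 g6 k) ∧ ∃ c < 64, K' (nth I5 g6 k) = v c * K (nth I5 g6 k) :=
      (H16.nth_mem I5 g6 k).elim (fun q => by rw [q]; exact i) fun q => ⟨(g6k _ q).1, (g6k _ q).2.1, n.l0 _ q⟩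
    rw [show ew g6 (k :: l) = mm (nth I5 g6 k) (ew g6 l) from force_eq _ _]
    exact ⟨ok_mm o' o, p'.mm gdk.2.2.2.1.2 p o, _, Nat.xor_lt_two_pow (n := 6) ha ((sb_lt 6).1 (lm.sb' (by decide +kernel) o' p'
      ((sb_lt 6).2 hb))), by rw [n.ik'.km _ _ o' o, e, e', n.ik.elm o' o]⟩
theorem l4 : ∀ j < 8, ∃ c < 64, K' (ug (16 * j)) = v c * K (ug (16 * j)) := fun j hj =>
  (by decide +kernel : ∀ j < 8, ew g6 (nth [] [[], [0, 2, 4, 2, 0, 2, 4, 2], [2, 4, 2, 4], [0, 2, 4, 2, 0, 4], [4], [1, 0, 2, 4, 2, 0, 1],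
    [2, 4, 2], [0, 2, 4, 2, 0]] j) = ug (16 * j)) j hj ▸ (n.lw _).2.2
theorem eZ : Z3 (xv v K) K' = Z3 v K := le_antisymm
  (fun x hx => let ⟨z, hz, e⟩ := n.ik'.ex3 hx; e ▸ n.xv0 (hz.trans (by decide)) ▸ n.ik.v3 hz)
  fun x hx => let ⟨z, hz, e⟩ := n.ik.ex3 hx; e ▸ n.xv0 (hz.trans (by decide)) ▸ n.ik'.v3 hz
theorem eR : R3 (xv v K) K' = R3 v K := eq_of_le_of_card_eq ((closure_le _).2 fun _ ⟨a, g, ha, o, p, e⟩ => by
    obtain ⟨i, hi, rfl⟩ := ex_ug o (p.mono (by decide +kernel))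
    have t := (by decide +kernel : ∀ i < 1024, inP m3 (ug i) → i / 16 < 8 ∧ i % 16 < 8 ∧ ug i = mm (ug (16 * (i / 16))) (ug (i % 16)) ∧
      inP m3 (ug (16 * (i / 16)))) i hi p
    obtain ⟨c, hc, q⟩ := n.l4 _ t.1
    have l := (sb_lt 9).1 ha
    have o1 := (ugk (16 * (i / 16)) (by omega)).1
    rw [e, t.2.2.1, n.ik'.km _ _ o1 (ugk _ (by omega)).1, q, n.eh _ (by omega)]
    exact mul_mem (el_PS ((sb_lt 9).2 (by omega)) (ugk _ (by omega)).1 ((by decide +kernel : ∀ i < 8, inP m3 (ug i)) _ (by omega)))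
      (mul_mem (el_PS ((sb_lt 9).2 (by omega)) o1 t.2.2.2) (n.ik.vP ((sb_lt 9).2 (by omega)))))
  ((n.ik'.cPS (by decide +kernel)).trans (n.ik.cPS (by decide +kernel)).symm)
theorem y5 : K' (ee 4 3) ∈ C(Z3 v K) ⊓ N(R3 v K) := n.eZ ▸ n.eR ▸ n.ik'.c4 (n.ik'.KP (by decide +kernel) (by decide +kernel))
theorem y5v (hc : c < 64) : K' (ee 4 3) * v c * (K' (ee 4 3))⁻¹ = v c * K (ug (c / 8)) := by
  have t := (by decide +kernel : ∀ c < 64, Lv (ee 4 3) c % 64 = c ∧ Lv (ee 4 3) c / 64 % 16 = c / 8) c hc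
  conv_lhs => rw [← n.xv0 hc, n.ik'.Kcj (by decide +kernel), xv, t.1, t.2]
theorem y5K (o : ok g = true ∧ mm (ee 4 3) g = mm g (ee 4 3)) (hc : c < 64) (e : K' g = v c * K g) :
    K' (ee 4 3) * K g * (K' (ee 4 3))⁻¹ = K (ug (c / 8)) * K g := by
  have t := (x1k' (i := c / 8) (a := c) (by omega) (by omega)).2.2 (by omega)
  conv_lhs => rw [← inv_mul_eq_of_eq_mul e, n.ik.vinv, cjmul, n.y5v hc, cjc (mem_cent1.2 (n.ik'.Kcm (by decide +kernel) o.1 o.2)), e]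
  rw [← mul_assoc, mul_assoc (v c), n.ik.Kv (ugk _ (by omega)).1, t, ← mul_assoc, n.ik.vv, one_mul]
theorem act (hc : c < 16) (e : K' (ug 16) = v c * K (ug 16)) :
    Act v K (K' (ee 4 3)) (a5 (if c < 8 then 68736266249 else 68769822729)) := by
  have h := n.ik
  have o := fun i (hi : i < 1024) => (ugk i hi).1
  have u0 : K (ug 0) = 1 := h.K1
  refine h.actB n.y5.1 (by split_ifs <;> decide +kernel) fun j hj => ?_
  interval_cases j
  · rw [show a5 _ _ = 9 by split_ifs <;> decide +kernel, ph, show pb _ = 0 from rfl, u0, mul_one, n.y5v (by decide)]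
    exact (mul_inv_cancel (ph v K 9)).symm ▸ one_mem (Z3 v K)
  · have t := (by decide +kernel : ∀ c < 16, force (a5 (if c < 8 then 68736266249 else 68769822729) (2 ^ 1)) (fun w =>
      pb w == 16 && Nat.blt (c ^^^ Lv (ug 16) 64 ^^^ pa w) 8) = true) c hc
    simp only [force_eq, Bool.and_eq_true, beq_iff_eq, Nat.blt_eq] at t
    rw [ph, ph, t.1, show pb _ = 0 from rfl, u0, mul_one, show pa _ = 64 * 1 from rfl, ← n.eh 1 (by decide), ← n.ik'.km _ _ (by decide +kernel)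
      (by decide +kernel), show mm (ee 4 3) (ug 1) = mm (mm (ug 16) (ug 1)) (ee 4 3) by decide +kernel, n.ik'.km _ _ (by decide +kernel)
      (by decide +kernel), mul_inv_cancel_right, n.ik'.km _ _ (by decide +kernel) (by decide +kernel), e, n.eh 1 (by decide), mul_assoc (v c),
      h.Kv (by decide +kernel), _root_.mul_inv_rev, ← mul_assoc, ← mul_assoc, mul_inv_cancel_right, h.vinv, ← h.vx, ← h.vx]
    exact h.v3 t.2
  · have t := (by decide +kernel : ∀ c < 16, force (a5 (if c < 8 then 68736266249 else 68769822729) (2 ^ 2)) (fun w =>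
      pa w == 0 && ug (pb w) == mm (ug (c / 8)) (ug 16)) = true) c hc
    simp only [force_eq, Bool.and_eq_true, beq_iff_eq] at t
    rw [ph, ph, t.1, t.2, show pa _ = 0 from rfl, h.v0, one_mul, one_mul, show pb _ = 16 from rfl,
      n.y5K (by decide +kernel) (by omega) e, h.km _ _ (o _ (by omega)) (o _ (by omega)), mul_inv_cancel]
    exact one_mem _
  · rw [show a5 _ _ = 2 ^ 3 by split_ifs <;> decide +kernel, show ph v K _ = xv v K 64 from rfl, n.ik'.Kcj (by decide +kernel),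
      show Lv _ _ = 64 by decide +kernel, mul_inv_cancel]
    exact one_mem _
theorem e0 (h : C1 A ρ v K) : ∃ c < 8, K' (ug 16) = v c * K (ug 16) := by
  obtain ⟨c, hc, e⟩ := n.l4 1 (by decide)
  have k : ∀ g ∈ g6, mm g (ug 16) = mm (ug 16) g → c ^^^ Lv g c < 8 := fun g hg q => by
    obtain ⟨b, hb, r⟩ := n.l0 g hg
    have o := (g6k g hg).1
    have o' := (ugk 16 (by decide)).1
    have := n.ik'.Kcm o o' q
    rw [r, e, h.elm o o', h.elm o' o] at this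
    have t := (h.uniq (x10 (by omega) (Lv_lt _ _)) (x10 (by omega) (Lv_lt _ _)) (ok_mm o o') (ok_mm o' o) this).1
    rw [show c ^^^ Lv g c = b ^^^ Lv (ug 16) b by
      rw [← Nat.xor_xor_cancel_left b (Lv g c), t, Nat.xor_left_comm, Nat.xor_xor_cancel_left]]
    exact (by decide +kernel : ∀ b < 64, b ^^^ Lv (ug 16) b < 8) b hb
  have c16 := (by decide +kernel : ∀ c < 64, c ^^^ Lv (ee 1 2) c < 8 → c ^^^ Lv (ee 2 1) c < 8 → c < 16) c hc
    (k _ (by decide) (by decide +kernel)) (k _ (by decide) (by decide +kernel))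
  refine ⟨c, lt_of_not_ge fun c8 => ?_, e⟩
  have a5' := n.act c16 e
  rw [if_neg (by omega)] at a5'
  have a := (h.actK (g := ee 3 4) (f := a5 68769814529) (by decide +kernel)).mul
    ((h.actK (g := ee 4 3) (f := a5 103095996419) (by decide +kernel)).mul a5')
  have m : K (ee 3 4) * (K (ee 4 3) * K' (ee 4 3)) ∈ C(Z3 v K) ⊓ N(R3 v K) := mul_mem (h.c4 (h.KP (by decide +kernel) (by decide +kernel)))
    (mul_mem (h.c4 (h.KP (by decide +kernel) (by decide +kernel))) n.y5)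
  generalize K (ee 3 4) * (K (ee 4 3) * K' (ee 4 3)) = x at a m
  have TN : sT v K ≤ N(Z3 v K) ⊓ N(R3 v K) := le_inf (h.nrm (by decide +kernel)) (h.nrm (by decide +kernel))
  obtain ⟨j, hj, q⟩ := sq_syl (R := R3 v K) (h.syl.inf_of_norm le_top (norms_inf (norms_cent (TN.trans inf_le_left))
    (norms_norm (TN.trans inf_le_right)))) inf_le_right (fun t ht => by
      obtain ⟨a, ha, i, hi, rfl⟩ := h.exT ht.1
      have o := (ugk i hi).1
      have r := fun k (hk : k < 3) => h.col (h.elN a (ug i)) ht.2.1 (k := k) (by omega) ((sb_lt 3).2 (Nat.pow_lt_pow_right one_lt_two hk))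
      rw [h.rel o] at r
      have t := (by decide +kernel : ∀ i < 1024, (∀ k < 3, wd (cl11 (ug i) (pp k)) (cl11 (ug i) (qq k)) = 2 ^ k) →
        inP 0xf00e00000000 (ug i) ∧ inP m3 (mm (ug i) (ug i))) i hi r
      rw [h.elm o o, Nat.xor_comm]
      exact el_PS (lm.sb (by decide +kernel) o t.1 ((sb_lt 10).2 ha)) (ok_mm o o) t.2) m
  have a2 := a.mul a
  have r1 := h.phR (a := 1) (by decide)
  have := (mem_cm1.1 (odd_mem (B := cm (Z3 v K) {ph v K 1}) (mem_cm1.2 ⟨cent_le_norm _ (a2.mul a2).1, ((a2.mul a2).2 1 (by decide)).2⟩)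
    (mem_cm1.2 ⟨cent_le_norm _ (h.c4 (h.R4 q)).1, ?_⟩) hj)).2
  · have t := mul_mem (inv_mem this) (show x * x * ph v K 1 * (x * x)⁻¹ * (ph v K (1 ^^^ 4))⁻¹ ∈ Z3 v K from (a2.2 1 (by decide)).2)
    rw [commutatorElement_def, h.phx (by decide) (by decide)] at t
    have t' := conj_mem_of_norm' (cent_le_norm _ (h.c4 (h.R4 r1)).1) (inv_mem t)
    rw [show _ * _ * ph v K 1 = ph v K 4 by group] at t'
    exact absurd ((h.el_mem phk.2.1.2.1 (by decide) (by decide +kernel)).1 t').2 (by decide +kernel)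
  · generalize (x * x) ^ j = y at q
    obtain ⟨a, g, ha, o, p, rfl⟩ := (h.mem_PS phk.2.2.1).1 q
    rw [show ph v K 1 = v 8 from (congrArg _ h.K1).trans (mul_one _), h.cmv (h.elN a g), h.rel o]
    exact h.vP (lm.sb (m := 8) (by decide +kernel) o p (sb_rfl 8))
end NM
theorem f6 : F6.{u} := by
  intro G _ _ A ρ ρ' v K K' h n
  obtain ⟨ρ', K', n, et1⟩ : ∃ ρ' K', NM A ρ v K ρ' K' ∧ K' et = K et := by
    obtain ⟨o, -, c, hc, e⟩ := (by decide +kernel : ew g6 [0, 1, 3, 2] = et) ▸ n.lw [0, 1, 3, 2]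
    obtain ⟨z, hz, q⟩ := (by decide +kernel : ∀ c < 64, ∃ z < 64, z ^^^ c ^^^ Lv et z = 0) c hc
    exact ⟨_, _, n.gauge hz, by rw [n.gv o e, q, h.v0, one_mul]⟩
  have oe := phk.2.2.2
  have o5 : ok (ee 4 3) = true := by decide +kernel
  obtain ⟨c, hc, e⟩ := n.e0 h
  have a5' := n.act (by omega) e
  rw [if_pos hc] at a5'
  have a := (h.actK (g := ee 4 3) (f := a5 103095996419) (by decide +kernel)).mul a5'
  have a2 := a.mul a
  have ce : K (ee 4 3) * K' (ee 4 3) ∈ C[K et] := mul_mem (mem_cent1.2 (h.Kcm o5 oe (by decide +kernel)))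
    (et1 ▸ mem_cent1.2 (n.ik'.Kcm o5 oe (by decide +kernel)))
  have cy : Commute (K (ee 4 3)) (K' (ee 4 3)) := by
    suffices K (ee 4 3) * K' (ee 4 3) * (K (ee 4 3) * K' (ee 4 3)) = 1 by
      rw [Commute, SemiconjBy, eq_inv_of_mul_eq_one_left this, _root_.mul_inv_rev, inv_eq_of_mul_eq_one_right (h.Ksq o5 (by decide +kernel)),
        inv_eq_of_mul_eq_one_right (n.ik'.Ksq o5 (by decide +kernel))]
    have ce := mul_mem ce ce
    generalize K (ee 4 3) * K' (ee 4 3) * (K (ee 4 3) * K' (ee 4 3)) = x at a2 ce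
    have k : ∀ m w, (w < 16 ∧ pb w = 0 ∧ pa w = m * 1 ∧ m ≤ 64 ∧ (∀ a < 8, ∀ b < 8, m * (a ^^^ b) = m * a ^^^ m * b) ∧
        ∀ u < 8, Lv et (m * u) = m * a5 et u) → x * ph v K w * x⁻¹ * (ph v K w)⁻¹ ∈ Z3 v K → ∀ u < 8, x ∈ C[v (m * u)] :=
      fun m w d t u hu => of_cjc (h.eta (p := fun u => v (m * u)) (q := fun u => x * v (m * u) * x⁻¹)
        (fun a ha b hb => by rw [d.2.2.2.2.1 a ha b hb, h.vx]) (fun a ha b hb => by rw [d.2.2.2.2.1 a ha b hb, h.vx, cjmul])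
        (fun u hu => by rw [h.Kcj oe, d.2.2.2.2.2 u hu])
        (fun u hu => by rw [cjcj, ← mem_cent1.1 ce, ← cjcj, h.Kcj oe, d.2.2.2.2.2 u hu]) (cent_mono h.PA (ab_sq h.sq (h.vm _)))
        (by rwa [ph, d.2.1, d.2.2.1, show K (ug 0) = 1 from h.K1, mul_one] at t) u hu)
    have xA := h.cw (mem_cent.2 fun y hy => by
      obtain ⟨a, ha, rfl⟩ := h.memV gdk.1.2.1 hy (h.PA hy)
      have t := (by decide +kernel : ∀ a < 224, a = a % 8 ^^^ (8 * (a / 8 % 8) ^^^ 64 * (a / 64))) a (Nat.lt_succ_of_le ha.le)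
      have := ha.le
      rw [t, h.vx, h.vx]
      exact mem_cent1.1 (mul_mem (mem_cent1_symm.1 (cent_le_cent1 (h.v3 (by omega)) a2.1)) (mul_mem
        (mem_cent1_symm.1 (k 8 1 (by decide +kernel) (a2.2 1 (by decide)).2 _ (by omega)))
        (mem_cent1_symm.1 (k 64 2 (by decide +kernel) (a2.2 2 (by decide)).2 _ (by omega))))))
    obtain ⟨b, hb, rfl⟩ := h.vs x xA
    rcases (by decide +kernel : ∀ b < 1024, Lv et b = b → b = 0 ∨ b = 512) b hb ((h.fixK oe hb).1 (mem_cent1_symm.1 ce)) with rfl | rfl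
    · exact h.v0
    have t : ⁅v 512, ph v K 4⁆ ∈ Z3 v K := (a2.2 4 (by decide)).2
    have := cms t
    rw [ph, h.cmv (h.elN _ _), h.rel (by decide +kernel), h.v_mem phk.2.1.2.1 (by decide +kernel)] at this
    exact absurd this (by decide +kernel)
  have k : ∀ g, (ok g = true ∧ mm (ee 4 3) g = mm g (ee 4 3)) → (∃ c < 64, K' g = v c * K g) → Commute (K g) (K' (ee 4 3)) :=
    fun g o ⟨c, hc, e⟩ => by
      have t := n.y5K o hc e
      have m : K (ug (c / 8)) * K g ∈ C[K (ee 4 3)] := t ▸ mul_mem (mul_mem (mem_cent1.2 cy.symm.eq) (mem_cent1.2 (h.Kcm o.1 o5 o.2.symm)))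
        (inv_mem (mem_cent1.2 cy.symm.eq))
      have o' := (ugk (c / 8) (by omega)).1
      have := mem_cent1.1 ((mul_mem_cancel_right (mem_cent1.2 (h.Kcm o.1 o5 o.2.symm))).1 m)
      rw [← h.km _ _ o' o5, ← h.km _ _ o5 o'] at this
      rw [(by decide +kernel : ∀ i < 8, mm (ug i) (ee 4 3) = mm (ee 4 3) (ug i) → ug i = I5) _ (by omega)
        (h.Kinj (ok_mm o' o5) (ok_mm o5 o') this), h.K1, one_mul] at t
      exact (mul_inv_eq_iff_eq_mul.1 t).symm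
  have u16 : ∀ a < 8, ok (ug (16 * a)) = true ∧ inP m4 (ug (16 * a)) ∧ mm et (ug (16 * a)) = mm (ug (16 * a5 et a)) et ∧
    ok (ug (16 * a5 et a)) = true ∧ ∀ b < 8, ug (16 * (a ^^^ b)) = mm (ug (16 * a)) (ug (16 * b)) := by decide +kernel
  have s4 := h.eta (p := fun u => K (ug (16 * u))) (q := fun u => K' (ug (16 * u)))
    (fun a ha b hb => by rw [(u16 a ha).2.2.2.2 b hb, h.km _ _ (u16 a ha).1 (u16 b hb).1])
    (fun a ha b hb => by rw [(u16 a ha).2.2.2.2 b hb, n.ik'.km _ _ (u16 a ha).1 (u16 b hb).1])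
    (fun u hu => by rw [← h.km _ _ oe (u16 u hu).1, (u16 u hu).2.2.1, h.km _ _ (u16 u hu).2.2.2.1 oe, mul_inv_cancel_right])
    (fun u hu => by rw [← et1, ← n.ik'.km _ _ oe (u16 u hu).1, (u16 u hu).2.2.1, n.ik'.km _ _ (u16 u hu).2.2.2.1 oe, mul_inv_cancel_right])
    (h.c4 (h.KP (u16 1 (by decide)).1 (u16 1 (by decide)).2.1)).1 (by rw [e, mul_inv_cancel_right]; exact h.v3 hc)
  obtain ⟨c, hc, e⟩ := n.l0 (ee 3 2) (by decide)
  have x3 : K' (ee 2 3) = v 0 * K (ee 2 3) := by rw [h.v0, one_mul]; exact s4 4 (by decide)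
  have o3 : ok (ee 2 3) = true ∧ ok (ee 3 2) = true := by decide +kernel
  have r1 := n.ik'.Ksq o3.2 (by decide +kernel)
  have r2 : K' (ee 2 3) * K' (ee 3 2) * K' (ee 2 3) = K' (ee 3 2) * K' (ee 2 3) * K' (ee 3 2) := by
    rw [← n.ik'.km _ _ o3.1 o3.2, ← n.ik'.km _ _ o3.2 o3.1, ← n.ik'.km _ _ (ok_mm o3.1 o3.2) o3.1, ← n.ik'.km _ _ (ok_mm o3.2 o3.1) o3.2]
    exact congrArg _ (by decide +kernel)
  rw [e, h.elm o3.2 o3.2, ← h.K1, ← one_mul (K I5), ← h.v0] at r1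
  rw [e, x3, h.elm o3.1 o3.2, h.elm o3.2 o3.1, h.elm (ok_mm o3.1 o3.2) o3.1, h.elm (ok_mm o3.2 o3.1) o3.2] at r2
  obtain ⟨z, hz, q⟩ := (by decide +kernel : ∀ c < 64, c ^^^ Lv (ee 3 2) c = 0 → 0 ^^^ Lv (ee 2 3) c ^^^ Lv (mm (ee 2 3) (ee 3 2)) 0 =
      c ^^^ Lv (ee 3 2) 0 ^^^ Lv (mm (ee 3 2) (ee 2 3)) c → ∃ z < 8, z ^^^ c ^^^ Lv (ee 3 2) z = 0) c hc
    (h.uniq (x10 (by omega) (Lv_lt _ _)) (by decide) (ok_mm o3.2 o3.2) okI.1 r1).1
    (h.uniq (x10 (x10 (by omega) (Lv_lt _ _)) (Lv_lt _ _)) (x10 (x10 (by omega) (Lv_lt _ _)) (Lv_lt _ _)) (by decide +kernel)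
      (by decide +kernel) r2).1
  have n2 := n.gauge (z := z) (by omega)
  have s : ∀ u < 8, cf (v z) K' (ug (16 * u)) = K (ug (16 * u)) := fun u hu => by
    rw [cf, s4 u hu]; exact cjc (mem_cent1_symm.1 (cent_le_cent1 (h.v3 hz) (h.c4 (h.KP (u16 u hu).1 (u16 u hu).2.1)).1))
  have y3 : cf (v z) K' (ee 3 2) = K (ee 3 2) := by rw [n.gv o3.2 e, q, h.v0, one_mul]
  have mu : ∀ f g, ok f = true ∧ ok g = true → cf (v z) K' f = K f → cf (v z) K' g = K g → cf (v z) K' (mm f g) = K (mm f g) :=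
    fun f g o p q => by rw [n2.ik'.km _ _ o.1 o.2, h.km _ _ o.1 o.2, p, q]
  have n3 := mu _ _ (by decide +kernel) (mu _ _ (by decide +kernel) (s 4 (by decide)) y3) (s 4 (by decide))
  have t := fun u hu o o' => mu _ _ o (mu _ _ o' n3 (s u hu)) n3
  refine ⟨_, _, n2, ?_, fun g hg => ?_⟩
  · simp only [List.forall_mem_cons]
    exact ⟨by convert t 1 (by decide) (by decide +kernel) (by decide +kernel) using 2 <;> decide +kernel,
      by convert t 2 (by decide) (by decide +kernel) (by decide +kernel) using 2 <;> decide +kernel, s 1 (by decide), s 2 (by decide),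
      s 4 (by decide), y3, by simp⟩
  · rw [cf, cjc (mem_cent1_symm.1 (cent_le_cent1 (h.v3 hz) n.y5.1))]
    rcases (by decide +kernel : ∀ g ∈ [ee 0 1, ee 1 0, ee 1 2, ee 2 1, ee 3 4, ee 4 3], g = ug 8 ∨ g = ee 4 3 ∨
      g ∈ g6 ∧ ok g = true ∧ mm (ee 4 3) g = mm g (ee 4 3)) g hg with rfl | rfl | p
    · have := mem_cent1.1 ((n.ik'.fixK o5 (a := 512) (by decide)).2 (by decide +kernel))
      rw [xv, h.v0, one_mul] at this
      exact this.symm
    · exact cy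
    · exact k g p.2 (n.l0 g p.1)
end H10.RG
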